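import Mathlib
import Cfsg.Agent.Lib.Helper82.BrMain
import Cfsg.Agent.Lib.Helper82.MinDimLink
import Cfsg.Agent.Lib.Helper80.MTCombine
import Cfsg.Agent.Lib.Helper78.RankOne
import Cfsg.Agent.Lib.Helper5.KleinMain
import Cfsg.Agent.Lib.Helper21.DefectCard

set_option autoImplicit false
open Cfsg
open Cfsg.Agent.Lib.Helper81 Cfsg.Agent.Lib.Helper80 Cfsg.Agent.Lib.Helper21 Cfsg.Agent.Lib.Helper82

namespace Cfsg.Agent.Lib.Helper64.Kuls

variable {p : ℕ} {M : Ideal AlgInt}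
variable {G : Type*} [Group G] [Fintype G]

theorem card_eq_of_degrees (hM : IsPModular p M) {B : Set (IrrCharacter G)} (hB : IsPBlock M B)
    (hl : blockRank p B = 1) {n : ℕ} (hn : ∀ χ ∈ B, charDegree (χ : G → ℂ) = n) :
    Nat.card B = p ^ blockDefect p B := by
  classical
  have : Fintype (IrrCharacter G) := Fintype.ofFinite _
  obtain ⟨φ, d, n', h1, h2, h3⟩ := Cfsg.Agent.Lib.Helper78.rank_one_structure hM hB hl
  have hp := hM.1
  have hreg1 : IsPRegular p (1 : G) := by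
    simp only [IsPRegular, orderOf_one, Nat.dvd_one]; exact hp.one_lt.ne'
  obtain ⟨χ₀, hχ₀⟩ := isPBlock_nonempty hM hB
  have hn0 : (n : ℂ) ≠ 0 := by
    have := charDegree_ne_zero χ₀
    rw [hn χ₀ hχ₀] at this
    exact_mod_cast this
  have hd : ∀ χ ∈ B, (n : ℂ) = (d χ : ℂ) * φ 1 := by
    intro χ hχ
    have := h2 χ hχ 1 hreg1
    rw [Cfsg.Agent.Lib.Helper81.irr_one_eq, hn χ hχ] at this
    exact this
  have hφ : φ 1 ≠ 0 := by
    intro h
    have := hd χ₀ hχ₀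
    rw [h, mul_zero] at this
    exact hn0 this
  have hφ1 : φ 1 = ((∑ ψ : IrrCharacter G, if ψ ∈ B then n' ψ else 0 : ℤ) : ℂ) * n := by
    rw [h1 1 hreg1]
    push_cast
    rw [Finset.sum_mul]
    apply Finset.sum_congr rfl
    intro ψ _
    by_cases hψ : ψ ∈ B
    · rw [if_pos hψ, if_pos hψ, Cfsg.Agent.Lib.Helper81.irr_one_eq, hn ψ hψ]
    · rw [if_neg hψ, if_neg hψ]; simp
  have hone : ∀ χ ∈ B, d χ = 1 := by
    intro χ hχ
    have h4 := hd χ hχ
    rw [hφ1] at h4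
    have h5 : ((d χ : ℤ) * (∑ ψ : IrrCharacter G, if ψ ∈ B then n' ψ else 0) : ℤ) = 1 := by
      have h6 : (((d χ : ℤ) * (∑ ψ : IrrCharacter G, if ψ ∈ B then n' ψ else 0) : ℤ) : ℂ) = 1 := by
        have h7 : (n : ℂ) * 1 = n * (((d χ : ℤ) * (∑ ψ : IrrCharacter G, if ψ ∈ B then n' ψ else 0) : ℤ) : ℂ) := by
          rw [mul_one]
          conv_lhs => rw [h4]
          push_cast
          ring
        exact (mul_left_cancel₀ hn0 h7).symm
      exact_mod_cast h6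
    have h8 : (d χ : ℤ) ∣ 1 := Dvd.intro _ h5
    have h9 : d χ ∣ 1 := by exact_mod_cast h8
    exact Nat.dvd_one.1 h9
  rw [← h3]
  have h10 : (∑ χ : IrrCharacter G, if χ ∈ B then d χ ^ 2 else 0)
      = ∑ χ : IrrCharacter G, if χ ∈ B then 1 else 0 := by
    apply Finset.sum_congr rfl
    intro χ _
    by_cases hχ : χ ∈ B
    · rw [if_pos hχ, if_pos hχ, hone χ hχ, one_pow]
    · rw [if_neg hχ, if_neg hχ]
  rw [h10, Finset.sum_boole, Nat.card_eq_fintype_card, Fintype.card_subtype]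
  simp

end Cfsg.Agent.Lib.Helper64.Kuls
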