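import Mathlib
import Cfsg.Agent.Lib.Helper82.BrMain
import Cfsg.Agent.Lib.Helper82.MinDimLink
import Cfsg.Agent.Lib.Helper80.MTCombine
import Cfsg.Agent.Lib.Helper78.RankOne
import Cfsg.Agent.Lib.Helper5.KleinMain
import Cfsg.Agent.Lib.Helper21.DefectCard

set_option autoImplicit false
open Cfsg
open Cfsg.Agent.Lib.Helper81 Cfsg.Agent.Lib.Helper80 Cfsg.Agent.Lib.Helper21 Cfsg.Agent.Lib.Helper82

namespace Cfsg.Agent.Lib.Helper64.Kuls

variable {p : ℕ} {M : Ideal AlgInt}
variable {G : Type*} [Group G] [Fintype G]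

theorem exists_min (hM : IsPModular p M)
    (hval : ∀ x : ℂ, IsAlgebraic ℤ x → MemLocalRing M x ∨ MemLocalRing M x⁻¹)
    (v : G → ℂ) (hv : ∀ g, IsAlgebraic ℤ (v g)) (s : Finset G) :
    (∃ g ∈ s, v g ≠ 0) → ∃ g0 ∈ s, v g0 ≠ 0 ∧ ∀ g ∈ s, MemLocalRing M (v g / v g0) := by
  classical
  induction s using Finset.induction_on with
  | empty => rintro ⟨g, hg, -⟩; simp at hg
  | insert a s ha ih =>
    intro hex
    by_cases hs : ∃ g ∈ s, v g ≠ 0
    · obtain ⟨g0, hg0, hv0, hall⟩ := ih hs
      by_cases hva : v a = 0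
      · refine ⟨g0, Finset.mem_insert_of_mem hg0, hv0, fun g hg => ?_⟩
        rcases Finset.mem_insert.1 hg with rfl | hg
        · rw [hva, zero_div]; exact memLocalRing_zero hM
        · exact hall g hg
      · rcases hval (v a / v g0) ((hv a).mul (hv g0).inv) with h | h
        · refine ⟨g0, Finset.mem_insert_of_mem hg0, hv0, fun g hg => ?_⟩
          rcases Finset.mem_insert.1 hg with rfl | hg
          · exact h
          · exact hall g hg
        · refine ⟨a, Finset.mem_insert_self a s, hva, fun g hg => ?_⟩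
          rcases Finset.mem_insert.1 hg with rfl | hg
          · rw [div_self hva]; exact memLocalRing_one hM
          · have h1 : v g / v a = (v g / v g0) * (v a / v g0)⁻¹ := by
              field_simp
            rw [h1]
            exact memLocalRing_mul hM (hall g hg) h
    · push Not at hs
      obtain ⟨g, hg, hvg⟩ := hex
      have hga : g = a := by
        rcases Finset.mem_insert.1 hg with h | h
        · exact h
        · exact absurd (hs g h) hvg
      subst hga
      refine ⟨g, Finset.mem_insert_self g s, hvg, fun g' hg' => ?_⟩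
      rcases Finset.mem_insert.1 hg' with rfl | hg'
      · rw [div_self hvg]; exact memLocalRing_one hM
      · rw [hs g' hg', zero_div]; exact memLocalRing_zero hM

theorem exists_scaling (hM : IsPModular p M)
    (hval : ∀ x : ℂ, IsAlgebraic ℤ x → MemLocalRing M x ∨ MemLocalRing M x⁻¹)
    (v : G → ℂ) (hv : ∀ g, IsAlgebraic ℤ (v g))
    (h0 : v ≠ 0) : ∃ δ : ℂ, RV M (δ • v) ∧ red hM (δ • v) ≠ 0 := by
  have hex : ∃ g ∈ (Finset.univ : Finset G), v g ≠ 0 := by
    by_contra hcon
    push Not at hcon
    exact h0 (funext fun g => hcon g (Finset.mem_univ g))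
  obtain ⟨g0, -, hv0, hall⟩ := exists_min hM hval v hv Finset.univ hex
  refine ⟨(v g0)⁻¹, fun g => ?_, fun h => ?_⟩
  · have := hall g (Finset.mem_univ g)
    rw [div_eq_inv_mul] at this
    exact this
  · have h1 := congrFun h g0
    rw [red_apply, Pi.smul_apply, smul_eq_mul, inv_mul_cancel₀ hv0, resC_one] at h1
    exact one_ne_zero h1

end Cfsg.Agent.Lib.Helper64.Kuls
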