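import Cfsg.Agent.Lib.Helper22.OF4Defs

/-! rung NAC of the ladder OF4 -/

set_option autoImplicit false
set_option maxRecDepth 100000

namespace Cfsg.Agent.Lib.Helper22.OF4
open Cfsg.Lie Matrix Cfsg.Agent.Lib.Helper22 Cfsg.Agent.Lib.Helper23 Cfsg.Agent.Lib.Helper45
open Cfsg.Agent.Lib.Helper45.AutAbs Cfsg.Agent.Lib.Helper23.TwAut

variable {K : Type*} [Field K] [CharP K 2] {m : ℕ} (b : Bundle chevF4 K)

/-- conjugation of a word by `nword v` in characteristic two -/
theorem nac_conj_W {v : List ℕ} (hv : ∀ i ∈ v, i < chevF4.rank) (w : List (ℕ × K))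
    (hw : ∀ p ∈ w, p.1 < chevF4.nroots) :
    b.hA.nword v * b.hA.W w * (b.hA.nword v)⁻¹ =
      b.hA.W (w.map fun p => (wact chevF4 v p.1, p.2)) := by
  induction w with
  | nil => simp [AddFact.W]
  | cons p l ih =>
    obtain ⟨ε, hε, h1, _⟩ := b.hA.nword_conj b.hR b.hN hv (hw p (by simp))
    have hε1 : ε = 1 := by
      rcases hε with rfl | rfl
      · rfl
      · exact CharTwo.neg_eq _
    have h2 := h1 p.2
    rw [hε1, one_mul] at h2
    rw [List.map_cons, W_cons, W_cons, ← ih (fun q hq => hw q (by simp [hq])), ← h2]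
    group

theorem nac_wact_a : wact chevF4 [1, 2, 1, 2] 27 = 20 ∧ wact chevF4 [1, 2, 1, 2] 25 = 22 ∧
    wact chevF4 [1, 2, 1, 2] 28 = 19 ∧ wact chevF4 [1, 2, 1, 2] 30 = 17 := by decide +kernel

theorem nac_wact_b : wact chevF4 [0, 3] 33 = 14 ∧ wact chevF4 [0, 3] 24 = 23 := by decide +kernel

/-- [NAC] -/
theorem f4_na_X (t u : K) : na b.hA m * xa b.hA m t u * (na b.hA m)⁻¹ = ya b.hA m t u := by
  apply Subtype.ext
  show b.hA.nword [1, 2, 1, 2] * b.hA.W (clsW 27 25 28 30 (f4Th K m) (f4Ps K m) t u) *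
    (b.hA.nword [1, 2, 1, 2])⁻¹ = b.hA.W (clsW 20 22 19 17 (f4Th K m) (f4Ps K m) t u)
  rw [nac_conj_W b (by decide +kernel) _ (by
    intro p hp
    simp only [clsW, List.mem_cons, List.not_mem_nil, or_false] at hp
    rcases hp with rfl | rfl | rfl | rfl <;> (show _ < 48) <;> norm_num)]
  obtain ⟨h1, h2, h3, h4⟩ := nac_wact_a
  simp only [clsW, List.map_cons, List.map_nil, h1, h2, h3, h4]

theorem f4_nb_X (t : K) : nb b.hA m * xb b.hA m t * (nb b.hA m)⁻¹ = yb b.hA m t := by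
  apply Subtype.ext
  show b.hA.nword [0, 3] * b.hA.W (pairW 33 24 (f4Th K m) t) *
    (b.hA.nword [0, 3])⁻¹ = b.hA.W (pairW 14 23 (f4Th K m) t)
  rw [nac_conj_W b (by decide +kernel) _ (by
    intro p hp
    simp only [pairW, List.mem_cons, List.not_mem_nil, or_false] at hp
    rcases hp with rfl | rfl <;> (show _ < 48) <;> norm_num)]
  obtain ⟨h1, h2⟩ := nac_wact_b
  simp only [pairW, List.map_cons, List.map_nil, h1, h2]

end Cfsg.Agent.Lib.Helper22.OF4
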