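import Mathlib

/-! rung PVA of the ladder OF4 -/

set_option autoImplicit false

namespace Cfsg.Agent.Lib.Helper22.OF4

/-- [PVA] (abstract) `P ∩ V = Y` by counting -/
theorem pv_abs {G : Type*} [Group G] [Finite G] {B V P : Subgroup G} {X Y : Set G} (n : G)
    (BV : ∀ g, g ∈ B → g ∈ V → g = 1) (hXB : ∀ x ∈ X, x ∈ B) (hBP : B ≤ P) (hnP : n ∈ P)
    (hP : ∀ g ∈ P, g ∈ B ∨ ∃ b ∈ B, ∃ b' ∈ B, g = b * n * b')
    (dc : ∀ b ∈ B, ∃ b' ∈ B, ∃ x ∈ X, n * b = b' * n * x)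
    (hconj : ∀ g, n * g * n⁻¹ ∈ Y ↔ g ∈ X) (hYV : ∀ y ∈ Y, y ∈ V) (h1 : (1 : G) ∈ X)
    (hnBV : ∀ b ∈ B, ∀ v ∈ V, n ≠ b * v) : ∀ g, g ∈ P ⊓ V ↔ g ∈ Y := by
  -- `Y ⊆ P`
  have hYP : ∀ y ∈ Y, y ∈ P := by
    intro y hy
    have h2 : n * (n⁻¹ * y * n) * n⁻¹ = y := by group
    have h3 : n⁻¹ * y * n ∈ X := (hconj _).1 (by rw [h2]; exact hy)
    rw [← h2]
    exact P.mul_mem (P.mul_mem hnP (hBP (hXB _ h3))) (P.inv_mem hnP)
  -- the normal form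
  have hA : ∀ g, g ∈ P → g ∈ V → g ≠ 1 → ∃ x, (x ∈ X ∧ x ≠ 1) ∧ ∃ b ∈ B, g = b * n * x := by
    intro g hgP hgV hg1
    rcases hP g hgP with hgB | ⟨b, hb, b', hb', e⟩
    · exact absurd (BV g hgB hgV) hg1
    · obtain ⟨b'', hb'', x, hx, e2⟩ := dc b' hb'
      have e3 : g = (b * b'') * n * x := by
        rw [e, mul_assoc b n b', e2]; group
      refine ⟨x, ⟨hx, ?_⟩, b * b'', B.mul_mem hb hb'', e3⟩
      intro hx1
      subst hx1
      refine hnBV (b * b'')⁻¹ (B.inv_mem (B.mul_mem hb hb'')) g hgV ?_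
      rw [e3]; group
  -- uniqueness
  have hU : ∀ g g' x, g ∈ V → g' ∈ V → (∃ b ∈ B, g = b * n * x) → (∃ b ∈ B, g' = b * n * x) →
      g = g' := by
    intro g g' x hg hg' ⟨b, hb, e⟩ ⟨b', hb', e'⟩
    have h2 : g * g'⁻¹ = b * b'⁻¹ := by rw [e, e']; group
    have h3 : g * g'⁻¹ = 1 := BV _ (by rw [h2]; exact B.mul_mem hb (B.inv_mem hb'))
      (V.mul_mem hg (V.inv_mem hg'))
    exact mul_inv_eq_one.1 h3
  -- the self map of `X \ {1}`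
  have hY' : ∀ x : {x // x ∈ X ∧ x ≠ 1}, n * x.1 * n⁻¹ ∈ Y ∧ n * x.1 * n⁻¹ ≠ 1 := by
    intro x
    refine ⟨(hconj _).2 x.2.1, ?_⟩
    intro h
    apply x.2.2
    have : x.1 = n⁻¹ * (n * x.1 * n⁻¹) * n := by group
    rw [this, h]; group
  choose f hf1 hf2 using fun x : {x // x ∈ X ∧ x ≠ 1} =>
    hA (n * x.1 * n⁻¹) (hYP _ (hY' x).1) (hYV _ (hY' x).1) (hY' x).2
  let F : {x // x ∈ X ∧ x ≠ 1} → {x // x ∈ X ∧ x ≠ 1} := fun x => ⟨f x, hf1 x⟩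
  have hFi : Function.Injective F := by
    intro x x' h
    have h2 : f x = f x' := congrArg Subtype.val h
    have h3 := hU _ _ (f x) (hYV _ (hY' x).1) (hYV _ (hY' x').1) (hf2 x) (by rw [h2]; exact hf2 x')
    apply Subtype.ext
    have h4 : n * x.1 = n * x'.1 := mul_right_cancel h3
    exact mul_left_cancel h4
  have hFs : Function.Surjective F := Finite.injective_iff_surjective.1 hFi
  intro g
  constructor
  · rintro ⟨hgP, hgV⟩
    by_cases hg1 : g = 1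
    · subst hg1
      have := (hconj 1).2 h1
      simpa using this
    · obtain ⟨x, hx, hb⟩ := hA g hgP hgV hg1
      obtain ⟨x0, hx0⟩ := hFs ⟨x, hx⟩
      have h2 : f x0 = x := congrArg Subtype.val hx0
      have h3 := hU g _ x hgV (hYV _ (hY' x0).1) hb (by rw [← h2]; exact hf2 x0)
      rw [h3]
      exact (hY' x0).1
  · intro hg
    exact ⟨hYP g hg, hYV g hg⟩

end Cfsg.Agent.Lib.Helper22.OF4
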