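import Cfsg.Agent.Lib.Helper23.AutNum

/-! rung AUTK of the ladder OF4 -/

set_option autoImplicit false

namespace Cfsg.Agent.Lib.Helper22.OF4

/-- [AUTK] -/
theorem card_ringAut {K : Type*} [Field K] [Fintype K] {n : ℕ} (hK : Fintype.card K = 2 ^ n) :
    Nat.card (K ≃+* K) = n := by
  obtain ⟨p, hp⟩ := CharP.exists K
  obtain ⟨k, hpp, hk⟩ := FiniteField.card K p
  have h2 : p = 2 := by
    have h1 : p ∣ 2 ^ n := by
      rw [← hK, hk]
      exact dvd_pow_self p k.ne_zero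
    exact (Nat.prime_dvd_prime_iff_eq hpp Nat.prime_two).1 (hpp.dvd_of_dvd_pow h1)
  subst h2
  have : Fact (Nat.Prime 2) := ⟨Nat.prime_two⟩
  exact Cfsg.Agent.Lib.Helper23.card_ringAut 2 n hK

end Cfsg.Agent.Lib.Helper22.OF4
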