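import Cfsg.Agent.Lib.Helper22.OF4Defs

/-! rung GEN of the ladder OF4 -/

set_option autoImplicit false
set_option maxRecDepth 100000

namespace Cfsg.Agent.Lib.Helper22.OF4
open Cfsg.Lie Matrix Cfsg.Agent.Lib.Helper22 Cfsg.Agent.Lib.Helper23 Cfsg.Agent.Lib.Helper45
open Cfsg.Agent.Lib.Helper45.AutAbs Cfsg.Agent.Lib.Helper23.TwAut

variable {K : Type*} [Field K] [CharP K 2] {m : ℕ} (b : Bundle chevF4 K)

/-- [GEN] -/
theorem f4_gen : Subgroup.closure ((Set.range (xb b.hA m) ∪ Set.range (yb b.hA m)) ∪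
      ({g | ∃ t u, g = xa b.hA m t u} ∪ {g | ∃ t u, g = ya b.hA m t u})) = ⊤ := by
  rw [eq_top_iff]
  rintro ⟨g, hg⟩ -
  have key : ∀ (x : GL chevF4.Idx K) (hx : x ∈ Subgroup.closure (f4Gens b.hA m)),
      ∃ hx' : x ∈ twistedF4 K (2 ^ m), (⟨x, hx'⟩ : ↥(twistedF4 K (2 ^ m))) ∈
        Subgroup.closure ((Set.range (xb b.hA m) ∪ Set.range (yb b.hA m)) ∪
      ({g | ∃ t u, g = xa b.hA m t u} ∪ {g | ∃ t u, g = ya b.hA m t u})) := by
    intro x hx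
    induction hx using Subgroup.closure_induction with
    | mem x hx =>
      rcases hx with (⟨t, rfl⟩ | ⟨t, rfl⟩) | (⟨t, u, rfl⟩ | ⟨t, u, rfl⟩)
      · exact ⟨pair_pos_mem b.hA m t, Subgroup.subset_closure (Or.inl (Or.inl ⟨t, rfl⟩))⟩
      · exact ⟨pair_neg_mem b.hA m t, Subgroup.subset_closure (Or.inl (Or.inr ⟨t, rfl⟩))⟩
      · exact ⟨cls_pos_mem b.hA m t u, Subgroup.subset_closure (Or.inr (Or.inl ⟨t, u, rfl⟩))⟩
      · exact ⟨cls_neg_mem b.hA m t u, Subgroup.subset_closure (Or.inr (Or.inr ⟨t, u, rfl⟩))⟩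
    | one => exact ⟨one_mem _, one_mem _⟩
    | mul x y _ _ hx hy =>
      obtain ⟨hx1, hx2⟩ := hx
      obtain ⟨hy1, hy2⟩ := hy
      exact ⟨mul_mem hx1 hy1, mul_mem hx2 hy2⟩
    | inv x _ hx =>
      obtain ⟨hx1, hx2⟩ := hx
      exact ⟨inv_mem hx1, inv_mem hx2⟩
  obtain ⟨_, h⟩ := key g (by rw [← twistedF4_eq b.hA m]; exact hg)
  exact h

end Cfsg.Agent.Lib.Helper22.OF4
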