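import Cfsg.Agent.Lib.Helper64.OF4NAC

/-! rung XA of the ladder OF4 -/

set_option autoImplicit false
set_option maxRecDepth 100000

namespace Cfsg.Agent.Lib.Helper22.OF4
open Cfsg.Lie Matrix Cfsg.Agent.Lib.Helper22 Cfsg.Agent.Lib.Helper23 Cfsg.Agent.Lib.Helper45
open Cfsg.Agent.Lib.Helper45.AutAbs Cfsg.Agent.Lib.Helper23.TwAut

variable {K : Type*} [Field K] [CharP K 2] [Fintype K] {m : ℕ} (hK : Fintype.card K = 2 ^ (2 * m + 1))
  (b : Bundle chevF4 K)

include hK in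
/-- [XA] -/
theorem f4_xa_mul (t u t' u' : K) :
    xa b.hA m t u * xa b.hA m t' u' = xa b.hA m (t + t') (u + u' + f4Th K m t * t') := by
  apply Subtype.ext
  show b.hA.W (clsW 27 25 28 30 (f4Th K m) (f4Ps K m) t u) *
    b.hA.W (clsW 27 25 28 30 (f4Th K m) (f4Ps K m) t' u') =
    b.hA.W (clsW 27 25 28 30 (f4Th K m) (f4Ps K m) (t + t') (u + u' + f4Th K m t * t'))
  unfold clsW
  rw [(b2Rel_pos b.hA).mul4]
  have e1 : f4Th K m t * t + u + (f4Th K m t' * t' + u') + f4Th K m t' * t =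
      f4Th K m (t + t') * (t + t') + (u + u' + f4Th K m t * t') := by
    rw [map_add]
    have h2 : f4Th K m t * t' + f4Th K m t * t' = 0 := CharTwo.add_self_eq_zero _
    linear_combination -h2
  have e2 : f4Ps K m u + f4Ps K m u' + f4Th K m t' ^ 2 * t =
      f4Ps K m (u + u' + f4Th K m t * t') := by
    rw [map_add, map_add, map_mul, f4Ps_f4Th hK, f4Ps_apply (K := K) m t']
    ring
  rw [e1, e2, map_add]

omit [Fintype K] in
theorem f4_xa_inj (t u t' u' : K) (h : xa b.hA m t u = xa b.hA m t' u') : t = t' ∧ u = u' := by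
  have h1 : b.hA.W (clsW 27 25 28 30 (f4Th K m) (f4Ps K m) t u) =
    b.hA.W (clsW 27 25 28 30 (f4Th K m) (f4Ps K m) t' u') := congrArg Subtype.val h
  unfold clsW at h1
  obtain ⟨-, h2, h3, -⟩ := f4_unique4 b h1
  subst h2
  exact ⟨rfl, add_left_cancel h3⟩

omit [Fintype K] in
theorem f4_ya_inj (t u t' u' : K) (h : ya b.hA m t u = ya b.hA m t' u') : t = t' ∧ u = u' := by
  rw [← f4_na_X b, ← f4_na_X b] at h
  exact f4_xa_inj b t u t' u' (mul_left_cancel (mul_right_cancel h))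

omit [Fintype K] in
theorem f4_xa_B (t u : K) : xa b.hA m t u ∈ BB K m := by
  refine mem_sT.2 ?_
  exact AddFact.pos_le_borel (XL_le_pos b (l := [27, 25, 28, 30]) (by decide +kernel) ⟨_, rfl, rfl⟩)

end Cfsg.Agent.Lib.Helper22.OF4
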