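import Mathlib
import Cfsg.Agent.Lib.Helper17.UnitHyp
import Cfsg.Agent.Lib.Helper17.UnitGen1

/-! Rung ALG of the PSU-AUT ladder: an injective endomorphism of the unipotent radical
`{(w,k) | k + k^q + h(w,w) = 0}` which is equivariant for the opposite root group is semilinear. -/

set_option autoImplicit false

namespace Cfsg.Agent.Lib.Helper64

/-- abstract data. -/
structure PsuAlg (F W : Type*) [Field F] [AddCommGroup W] [Module F W] where
  φ : F →+* F
  φφ : ∀ x, φ (φ x) = x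
  φ_comm : ∀ (σ : F →+* F) (x : F), σ (φ x) = φ (σ x)
  e₀ : F
  he₀ : φ e₀ ≠ e₀
  tr_surj : ∀ r, φ r = r → ∃ t, t + φ t = r
  k₀ : F
  hk₀ : k₀ ≠ 0
  hk₀' : φ k₀ = -k₀
  sq : (2 : F) = 0 → ∀ x, φ x = x → ∃ y, φ y = y ∧ y * y = x
  h : W → W → F
  h_add : ∀ u v w, h (u + v) w = h u w + h v w
  h_smul : ∀ (c : F) u w, h (c • u) w = c * h u w
  h_conj : ∀ u w, φ (h u w) = h w u
  T1 : W → F → W
  T2 : W → F → F
  tb : F → F
  h_mem : ∀ w k, k + φ k + h w w = 0 → T2 w k + φ (T2 w k) + h (T1 w k) (T1 w k) = 0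
  h_mul : ∀ w k w' k', k + φ k + h w w = 0 → k' + φ k' + h w' w' = 0 →
        T1 (w + w') (k + k' - h w' w) = T1 w k + T1 w' k' ∧
        T2 (w + w') (k + k' - h w' w) = T2 w k + T2 w' k' - h (T1 w' k') (T1 w k)
  h_inj : ∀ w k w' k', k + φ k + h w w = 0 → k' + φ k' + h w' w' = 0 →
        T1 w k = T1 w' k' → T2 w k = T2 w' k' → w = w' ∧ k = k'
  h_X : ∀ l : F, φ l = -l → T1 0 l = 0
  tb_mem : ∀ l : F, φ l = -l → φ (tb l) = -tb l
  tb_add : ∀ l l' : F, φ l = -l → φ l' = -l' → tb (l + l') = tb l + tb l'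
  tb_surj : ∀ m : F, φ m = -m → ∃ l : F, φ l = -l ∧ tb l = m
  h_b : ∀ w k l, k + φ k + h w w = 0 → φ l = -l → 1 + l * k ≠ 0 →
        1 + tb l * T2 w k ≠ 0 ∧
        T1 ((1 + l * k)⁻¹ • w) ((1 + l * k)⁻¹ * k) = (1 + tb l * T2 w k)⁻¹ • T1 w k ∧
        T2 ((1 + l * k)⁻¹ • w) ((1 + l * k)⁻¹ * k) = (1 + tb l * T2 w k)⁻¹ * T2 w k
  h_iso : ∀ w, h w w = 0 → ∀ x : F, ∃ y : F, T1 (x • w) 0 = y • T1 w 0
  h_dec : ∀ w, h w w = 0 → w ≠ 0 → ∃ w₁, h w₁ w₁ ≠ 0 ∧ h (w - w₁) (w - w₁) ≠ 0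
  w₀ : W
  hw₀ : h w₀ w₀ ≠ 0

namespace PsuAlg

variable {F W : Type*} [Field F] [AddCommGroup W] [Module F W] (S : PsuAlg F W)

/-- membership in the group. -/
def Hm (w : W) (k : F) : Prop := k + S.φ k + S.h w w = 0

theorem h_zero_left (w : W) : S.h 0 w = 0 := by
  have := S.h_smul 0 0 w
  simpa using this

theorem h_zero_right (w : W) : S.h w 0 = 0 := by
  rw [← S.h_conj, h_zero_left, map_zero]

theorem h_add_right (u v w : W) : S.h u (v + w) = S.h u v + S.h u w := by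
  rw [← S.h_conj, S.h_add, map_add, S.h_conj, S.h_conj]

theorem h_smul_right (c : F) (u w : W) : S.h u (c • w) = S.φ c * S.h u w := by
  rw [← S.h_conj, S.h_smul, map_mul, S.h_conj]

theorem h_self (w : W) : S.φ (S.h w w) = S.h w w := S.h_conj w w

theorem h_smul_smul (c : F) (w : W) : S.h (c • w) (c • w) = c * S.φ c * S.h w w := by
  rw [S.h_smul, h_smul_right]; ring

theorem h_neg_left (u w : W) : S.h (-u) w = -S.h u w := by
  have := S.h_smul (-1) u w
  simpa using this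

theorem h_sub_left (u v w : W) : S.h (u - v) w = S.h u w - S.h v w := by
  rw [sub_eq_add_neg, S.h_add, h_neg_left, sub_eq_add_neg]

theorem Hm_zero {l : F} (hl : S.φ l = -l) : S.Hm 0 l := by
  unfold Hm
  rw [hl, h_zero_left]; ring

theorem Hm_zero_iff {l : F} : S.Hm 0 l ↔ S.φ l = -l := by
  refine ⟨fun h => ?_, S.Hm_zero⟩
  unfold Hm at h
  rw [h_zero_left] at h
  linear_combination h

theorem exists_Hm (w : W) : ∃ k, S.Hm w k := by
  obtain ⟨t, ht⟩ := S.tr_surj (-S.h w w) (by rw [map_neg, h_self])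
  exact ⟨t, by unfold Hm; rw [ht]; ring⟩

theorem Hm_shift {w : W} {k l : F} (hk : S.Hm w k) (hl : S.φ l = -l) : S.Hm w (k + l) := by
  unfold Hm at hk ⊢
  rw [map_add, hl]
  linear_combination hk

theorem exists_Hm_ne (w : W) : ∃ k, k ≠ 0 ∧ S.Hm w k := by
  obtain ⟨k, hk⟩ := S.exists_Hm w
  by_cases h0 : k = 0
  · refine ⟨k + S.k₀, ?_, S.Hm_shift hk S.hk₀'⟩
    rw [h0, zero_add]; exact S.hk₀
  · exact ⟨k, h0, hk⟩

theorem T1_shift {w : W} {k l : F} (hk : S.Hm w k) (hl : S.φ l = -l) :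
    S.T1 w (k + l) = S.T1 w k := by
  have := (S.h_mul w k 0 l hk (S.Hm_zero hl)).1
  rw [add_zero, h_zero_left, sub_zero, S.h_X l hl, add_zero] at this
  exact this

theorem T2_shift {w : W} {k l : F} (hk : S.Hm w k) (hl : S.φ l = -l) :
    S.T2 w (k + l) = S.T2 w k + S.T2 0 l := by
  have := (S.h_mul w k 0 l hk (S.Hm_zero hl)).2
  rw [add_zero, h_zero_left, sub_zero, S.h_X l hl, h_zero_left, sub_zero] at this
  exact this

theorem diff_mem {w : W} {k k' : F} (hk : S.Hm w k) (hk' : S.Hm w k') :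
    S.φ (k' - k) = -(k' - k) := by
  unfold Hm at hk hk'
  rw [map_sub]
  linear_combination hk' - hk

theorem T1_indep {w : W} {k k' : F} (hk : S.Hm w k) (hk' : S.Hm w k') :
    S.T1 w k = S.T1 w k' := by
  have := S.T1_shift hk (S.diff_mem hk hk')
  rw [add_sub_cancel] at this
  exact this.symm

/-- the linear part. -/
noncomputable def A (w : W) : W := S.T1 w (S.exists_Hm w).choose

theorem A_eq {w : W} {k : F} (hk : S.Hm w k) : S.T1 w k = S.A w :=
  S.T1_indep hk (S.exists_Hm w).choose_spec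

theorem Hm_mul {w w' : W} {k k' : F} (hk : S.Hm w k) (hk' : S.Hm w' k') :
    S.Hm (w + w') (k + k' - S.h w' w) := by
  unfold Hm at *
  rw [map_sub, map_add, S.h_conj, S.h_add, h_add_right, h_add_right]
  linear_combination hk + hk'

theorem A_add (w w' : W) : S.A (w + w') = S.A w + S.A w' := by
  obtain ⟨k, hk⟩ := S.exists_Hm w
  obtain ⟨k', hk'⟩ := S.exists_Hm w'
  rw [← S.A_eq hk, ← S.A_eq hk', ← S.A_eq (S.Hm_mul hk hk')]
  exact (S.h_mul w k w' k' hk hk').1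

theorem A_zero : S.A 0 = 0 := by
  have := S.A_add 0 0
  rw [add_zero] at this
  exact left_eq_add.mp this

theorem A_neg (w : W) : S.A (-w) = -S.A w := by
  have := S.A_add w (-w)
  rw [add_neg_cancel, A_zero] at this
  exact (neg_eq_of_add_eq_zero_right this.symm).symm

theorem A_sub (w w' : W) : S.A (w - w') = S.A w - S.A w' := by
  rw [sub_eq_add_neg, A_add, A_neg, sub_eq_add_neg]

/-- the action on the centre. -/
def τ (l : F) : F := S.T2 0 l

theorem τ_add {l l' : F} (hl : S.φ l = -l) (hl' : S.φ l' = -l') :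
    S.τ (l + l') = S.τ l + S.τ l' := S.T2_shift (S.Hm_zero hl) hl'

theorem τ_zero : S.τ 0 = 0 := by
  have := S.τ_add (l := 0) (l' := 0) (by simp) (by simp)
  rw [add_zero] at this
  exact left_eq_add.mp this

theorem τ_neg {l : F} (hl : S.φ l = -l) : S.τ (-l) = -S.τ l := by
  have := S.τ_add hl (l' := -l) (by rw [map_neg, hl])
  rw [add_neg_cancel, τ_zero] at this
  exact (neg_eq_of_add_eq_zero_right this.symm).symm

theorem τ_mem {l : F} (hl : S.φ l = -l) : S.φ (S.τ l) = -S.τ l := by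
  have := S.h_mem 0 l (S.Hm_zero hl)
  rw [S.h_X l hl, h_zero_left] at this
  unfold τ
  linear_combination this

theorem τ_inj {l : F} (hl : S.φ l = -l) (h0 : S.τ l = 0) : l = 0 := by
  have := S.h_inj 0 l 0 0 (S.Hm_zero hl) (S.Hm_zero (by simp)) (by
    rw [S.h_X l hl, S.h_X 0 (by simp)]) (h0.trans S.τ_zero.symm)
  exact this.2

theorem τ_ne {l : F} (hl : S.φ l = -l) (h0 : l ≠ 0) : S.τ l ≠ 0 := fun h => h0 (S.τ_inj hl h)

theorem K_inv {l : F} (hl : S.φ l = -l) : S.φ l⁻¹ = -l⁻¹ := by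
  rw [map_inv₀, hl, inv_neg]

theorem K_neg {l : F} (hl : S.φ l = -l) : S.φ (-l) = -(-l) := by
  rw [map_neg, hl]

theorem K_add {l l' : F} (hl : S.φ l = -l) (hl' : S.φ l' = -l') : S.φ (l + l') = -(l + l') := by
  rw [map_add, hl, hl']; ring

theorem K_sub {l l' : F} (hl : S.φ l = -l) (hl' : S.φ l' = -l') : S.φ (l - l') = -(l - l') := by
  rw [map_sub, hl, hl']; ring

theorem K_smul {r l : F} (hr : S.φ r = r) (hl : S.φ l = -l) : S.φ (r * l) = -(r * l) := by
  rw [map_mul, hr, hl]; ring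

theorem F_div {l l' : F} (hl : S.φ l = -l) (hl' : S.φ l' = -l') : S.φ (l / l') = l / l' := by
  rw [map_div₀, hl, hl', neg_div_neg_eq]

theorem F_mul {l l' : F} (hl : S.φ l = -l) (hl' : S.φ l' = -l') : S.φ (l * l') = l * l' := by
  rw [map_mul, hl, hl']; ring

end PsuAlg

end Cfsg.Agent.Lib.Helper64
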