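import Cfsg.Agent.Lib.Helper64.AutPSUAlg

set_option autoImplicit false

namespace Cfsg.Agent.Lib.Helper64

namespace PsuAlg

variable {F W : Type*} [Field F] [AddCommGroup W] [Module F W] (S : PsuAlg F W)

theorem tb_zero : S.tb 0 = 0 := by
  have := S.tb_add 0 0 (by simp) (by simp)
  rw [add_zero] at this
  exact left_eq_add.mp this

theorem tb_sub {l l' : F} (hl : S.φ l = -l) (hl' : S.φ l' = -l') :
    S.tb (l - l') = S.tb l - S.tb l' := by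
  have := S.tb_add (l - l') l' (S.K_sub hl hl') hl'
  rw [sub_add_cancel] at this
  rw [this]; ring

/-- step 1a -/
theorem τs_add {x l : F} (hx : S.φ x = -x) (hx0 : x ≠ 0) (hl : S.φ l = -l) (hxl : x + l ≠ 0) :
    (S.τ (x + l)⁻¹)⁻¹ = (S.τ x⁻¹)⁻¹ + S.tb l := by
  have hk : S.φ x⁻¹ = -x⁻¹ := S.K_inv hx
  have hd : 1 + l * x⁻¹ ≠ 0 := by
    intro h
    apply hxl
    have : x + l = (1 + l * x⁻¹) * x := by field_simp
    rw [this, h, zero_mul]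
  obtain ⟨h1, -, h3⟩ := S.h_b 0 x⁻¹ l (S.Hm_zero hk) hl hd
  rw [smul_zero] at h3
  have e1 : (1 + l * x⁻¹)⁻¹ * x⁻¹ = (x + l)⁻¹ := by
    field_simp
  rw [e1] at h3
  have hτ : S.τ x⁻¹ ≠ 0 := S.τ_ne hk (inv_ne_zero hx0)
  change S.τ (x + l)⁻¹ = (1 + S.tb l * S.τ x⁻¹)⁻¹ * S.τ x⁻¹ at h3
  change 1 + S.tb l * S.τ x⁻¹ ≠ 0 at h1
  rw [h3]
  generalize S.τ x⁻¹ = t at *
  generalize S.tb l = b at *
  field_simp

theorem tb_eq {x : F} (hx : S.φ x = -x) (hx0 : x ≠ 0) : S.tb x = (S.τ x⁻¹)⁻¹ := by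
  -- the constant
  have hconst : ∀ y, S.φ y = -y → y ≠ 0 →
      (S.τ y⁻¹)⁻¹ - S.tb y = (S.τ S.k₀⁻¹)⁻¹ - S.tb S.k₀ := by
    intro y hy hy0
    have h1 := S.τs_add S.hk₀' S.hk₀ (S.K_sub hy S.hk₀') (by rw [add_sub_cancel]; exact hy0)
    rw [add_sub_cancel, S.tb_sub hy S.hk₀'] at h1
    rw [h1]; ring
  set C := (S.τ S.k₀⁻¹)⁻¹ - S.tb S.k₀ with hC
  have hCK : S.φ C = -C := by
    rw [hC]
    exact S.K_sub (S.K_inv (S.τ_mem (S.K_inv S.hk₀'))) (S.tb_mem _ S.hk₀')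
  by_cases hC0 : C = 0
  · have := hconst x hx hx0
    rw [hC0] at this
    exact (sub_eq_zero.1 this).symm
  · exfalso
    obtain ⟨y, hy, hty⟩ := S.tb_surj (-C) (S.K_neg hCK)
    have hy0 : y ≠ 0 := by
      rintro rfl
      rw [tb_zero] at hty
      exact hC0 (neg_eq_zero.1 hty.symm)
    have h1 := hconst y hy hy0
    rw [hty] at h1
    have h2 : (S.τ y⁻¹)⁻¹ = 0 := by linear_combination h1
    exact S.τ_ne (S.K_inv hy) (inv_ne_zero hy0) (inv_eq_zero.1 h2)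

theorem tb_ne {x : F} (hx : S.φ x = -x) (hx0 : x ≠ 0) : S.tb x ≠ 0 := by
  rw [S.tb_eq hx hx0]
  exact inv_ne_zero (S.τ_ne (S.K_inv hx) (inv_ne_zero hx0))

theorem τ_surj {m : F} (hm : S.φ m = -m) : ∃ l, S.φ l = -l ∧ S.τ l = m := by
  by_cases hm0 : m = 0
  · exact ⟨0, by simp, by rw [τ_zero, hm0]⟩
  · obtain ⟨x, hx, hxm⟩ := S.tb_surj m⁻¹ (S.K_inv hm)
    have hx0 : x ≠ 0 := by
      rintro rfl
      rw [tb_zero] at hxm
      exact hm0 (inv_eq_zero.1 hxm.symm)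
    rw [S.tb_eq hx hx0] at hxm
    exact ⟨x⁻¹, S.K_inv hx, inv_injective hxm⟩

theorem Hm_M {w : W} {k l : F} (hk : S.Hm w k) (hl : S.φ l = -l) (hd : 1 + l * k ≠ 0) :
    S.Hm ((1 + l * k)⁻¹ • w) ((1 + l * k)⁻¹ * k) := by
  unfold Hm at hk ⊢
  have hd' : 1 - l * S.φ k ≠ 0 := by
    intro h
    apply hd
    have := congrArg S.φ h
    rw [map_sub, map_mul, map_one, map_zero, S.φφ, hl] at this
    linear_combination this
  rw [h_smul_smul, map_mul, map_inv₀, map_add, map_mul, map_one, hl]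
  have e : 1 + -l * S.φ k = 1 - l * S.φ k := by ring
  rw [e]
  field_simp
  linear_combination hk

/-- step 2: the `N`-relation -/
theorem N_rel {w : W} {k l : F} (hk : S.Hm w k) (hk0 : k ≠ 0) (hl : S.φ l = -l) (hl0 : l ≠ 0) :
    S.T2 w k ≠ 0 ∧ S.Hm (-(l / k) • w) (-(l ^ 2 / k)) ∧
      S.A (-(l / k) • w) = -(S.τ l / S.T2 w k) • S.A w ∧
      S.T2 (-(l / k) • w) (-(l ^ 2 / k)) = -((S.τ l) ^ 2 / S.T2 w k) := by
  have hkl := S.Hm_shift hk hl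
  have hl' : S.φ (-l⁻¹) = -(-l⁻¹) := S.K_neg (S.K_inv hl)
  have hd : 1 + -l⁻¹ * (k + l) = -(k / l) := by field_simp; ring
  have hd0 : 1 + -l⁻¹ * (k + l) ≠ 0 := by
    rw [hd]; exact neg_ne_zero.2 (div_ne_zero hk0 hl0)
  obtain ⟨h1, h2, h3⟩ := S.h_b w (k + l) (-l⁻¹) hkl hl' hd0
  have hM := S.Hm_M hkl hl' hd0
  have hτ : S.τ l ≠ 0 := S.τ_ne hl hl0
  have htb : S.tb (-l⁻¹) = -(S.τ l)⁻¹ := by
    rw [S.tb_eq hl' (neg_ne_zero.2 (inv_ne_zero hl0)), inv_neg, inv_inv, S.τ_neg hl, inv_neg]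
  have hT2 : S.T2 w (k + l) = S.T2 w k + S.τ l := S.T2_shift hk hl
  have hden : 1 + S.tb (-l⁻¹) * S.T2 w (k + l) = -(S.T2 w k / S.τ l) := by
    rw [htb, hT2]; field_simp; ring
  rw [hden] at h1 h2 h3
  have hψ : S.T2 w k ≠ 0 := by
    intro h
    apply h1
    rw [h]; simp
  have hdi : (1 + -l⁻¹ * (k + l))⁻¹ = -(l / k) := by
    rw [hd, inv_neg, inv_div]
  rw [hdi] at h2 h3 hM
  have hM2 := S.Hm_shift hM hl
  have e1 : -(l / k) * (k + l) + l = -(l ^ 2 / k) := by field_simp; ring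
  refine ⟨hψ, ?_, ?_, ?_⟩
  · rw [← e1]; exact hM2
  · rw [← S.A_eq hM, h2, S.A_eq hkl, inv_neg, inv_div]
  · rw [← e1, S.T2_shift hM hl, h3, hT2]
    change _ + S.τ l = _
    field_simp
    ring

end PsuAlg

end Cfsg.Agent.Lib.Helper64
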