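import Cfsg.Agent.Lib.Helper64.AutPSUAlg2

set_option autoImplicit false

namespace Cfsg.Agent.Lib.Helper64

namespace PsuAlg

variable {F W : Type*} [Field F] [AddCommGroup W] [Module F W] (S : PsuAlg F W)

theorem τ_rel {k l : F} (hk : S.φ k = -k) (hk0 : k ≠ 0) (hl : S.φ l = -l) (hl0 : l ≠ 0) :
    S.τ (l ^ 2 / k) * S.τ k = (S.τ l) ^ 2 := by
  obtain ⟨h1, -, -, h4⟩ := S.N_rel (S.Hm_zero hk) hk0 hl hl0
  rw [smul_zero] at h4
  change S.τ k ≠ 0 at h1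
  change S.τ (-(l ^ 2 / k)) = -((S.τ l) ^ 2 / S.τ k) at h4
  have hK : S.φ (l ^ 2 / k) = -(l ^ 2 / k) := by
    rw [map_div₀, map_pow, hl, hk]; field_simp
  rw [S.τ_neg hK, neg_inj] at h4
  rw [h4]; field_simp

/-- the restriction to the fixed field. -/
def T (s : F) : F := S.τ (s * S.k₀) / S.τ S.k₀

theorem τk₀ : S.τ S.k₀ ≠ 0 := S.τ_ne S.hk₀' S.hk₀

theorem T_add {s t : F} (hs : S.φ s = s) (ht : S.φ t = t) : S.T (s + t) = S.T s + S.T t := by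
  unfold T
  rw [add_mul, S.τ_add (S.K_smul hs S.hk₀') (S.K_smul ht S.hk₀'), add_div]

theorem T_one : S.T 1 = 1 := by
  unfold T
  rw [one_mul, div_self S.τk₀]

theorem T_zero : S.T 0 = 0 := by
  unfold T
  rw [zero_mul, τ_zero, zero_div]

theorem T_ne {s : F} (hs : S.φ s = s) (hs0 : s ≠ 0) : S.T s ≠ 0 :=
  div_ne_zero (S.τ_ne (S.K_smul hs S.hk₀') (mul_ne_zero hs0 S.hk₀)) S.τk₀

theorem T_fix {s : F} (hs : S.φ s = s) : S.φ (S.T s) = S.T s :=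
  S.F_div (S.τ_mem (S.K_smul hs S.hk₀')) (S.τ_mem S.hk₀')

theorem T_neg {s : F} (hs : S.φ s = s) : S.T (-s) = -S.T s := by
  unfold T
  rw [neg_mul, S.τ_neg (S.K_smul hs S.hk₀'), neg_div]

theorem T_rel {s t : F} (hs : S.φ s = s) (ht : S.φ t = t) (hs0 : s ≠ 0) (ht0 : t ≠ 0) :
    S.T (s ^ 2 / t) * S.T t = (S.T s) ^ 2 := by
  have h := S.τ_rel (S.K_smul ht S.hk₀') (mul_ne_zero ht0 S.hk₀) (S.K_smul hs S.hk₀')
    (mul_ne_zero hs0 S.hk₀)
  have e : (s * S.k₀) ^ 2 / (t * S.k₀) = s ^ 2 / t * S.k₀ := by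
    have := S.hk₀
    field_simp
  rw [e] at h
  unfold T
  have := S.τk₀
  rw [div_mul_div_comm, h, div_pow, _root_.sq (S.τ S.k₀)]

theorem T_sq {s : F} (hs : S.φ s = s) : S.T (s ^ 2) = (S.T s) ^ 2 := by
  by_cases hs0 : s = 0
  · rw [hs0]; simp [T_zero]
  · have := S.T_rel hs (map_one S.φ) hs0 one_ne_zero
    rwa [div_one, T_one, mul_one] at this

theorem T_inv {t : F} (ht : S.φ t = t) : S.T t⁻¹ = (S.T t)⁻¹ := by
  by_cases ht0 : t = 0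
  · rw [ht0]; simp [T_zero]
  · have := S.T_rel (map_one S.φ) ht one_ne_zero ht0
    rw [one_pow, T_one, one_pow, one_div] at this
    exact eq_inv_of_mul_eq_one_left this

theorem T_sq_mul {s u : F} (hs : S.φ s = s) (hu : S.φ u = u) :
    S.T (s ^ 2 * u) = (S.T s) ^ 2 * S.T u := by
  by_cases hs0 : s = 0
  · rw [hs0]; simp [T_zero]
  by_cases hu0 : u = 0
  · rw [hu0]; simp [T_zero]
  have hu' : S.φ u⁻¹ = u⁻¹ := by rw [map_inv₀, hu]
  have := S.T_rel hs hu' hs0 (inv_ne_zero hu0)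
  rw [div_inv_eq_mul, S.T_inv hu] at this
  have h2 := S.T_ne hu hu0
  field_simp at this
  rw [this, mul_comm]

theorem T_mul {x u : F} (hx : S.φ x = x) (hu : S.φ u = u) : S.T (x * u) = S.T x * S.T u := by
  by_cases h2 : (2 : F) = 0
  · obtain ⟨y, hy, rfl⟩ := S.sq h2 x hx
    rw [← _root_.sq, S.T_sq_mul hy hu, S.T_sq hy]
  · have hx1 : S.φ (x + 1) = x + 1 := by rw [map_add, hx, map_one]
    have h1 := S.T_sq_mul hx1 hu
    have hxu : S.φ (x * u) = x * u := by rw [map_mul, hx, hu]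
    have hx2u : S.φ (x ^ 2 * u) = x ^ 2 * u := by rw [map_mul, map_pow, hx, hu]
    have e : (x + 1) ^ 2 * u = x ^ 2 * u + (x * u + x * u) + u := by ring
    have hxu2 : S.φ (x * u + x * u) = x * u + x * u := by rw [map_add, hxu]
    have hsum : S.φ (x ^ 2 * u + (x * u + x * u)) = x ^ 2 * u + (x * u + x * u) := by
      rw [map_add, hx2u, hxu2]
    rw [e, S.T_add hsum hu, S.T_add hx2u hxu2, S.T_add hxu hxu, S.T_sq_mul hx hu,
      S.T_add hx (map_one S.φ), T_one] at h1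
    have : 2 * (S.T (x * u) - S.T x * S.T u) = 0 := by linear_combination h1
    rcases mul_eq_zero.1 this with h | h
    · exact absurd h h2
    · exact sub_eq_zero.1 h

theorem τ_smul {r l : F} (hr : S.φ r = r) (hl : S.φ l = -l) : S.τ (r * l) = S.T r * S.τ l := by
  have hs : S.φ (l / S.k₀) = l / S.k₀ := S.F_div hl S.hk₀'
  have h1 : ∀ s, S.τ (s * S.k₀) = S.T s * S.τ S.k₀ := by
    intro s
    unfold T
    rw [div_mul_cancel₀ _ S.τk₀]
  have e1 : l = l / S.k₀ * S.k₀ := (div_mul_cancel₀ _ S.hk₀).symm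
  have e2 : r * l = (r * (l / S.k₀)) * S.k₀ := by rw [mul_assoc, ← e1]
  rw [e2, h1, S.T_mul hr hs]
  conv_rhs => rw [e1, h1]
  ring

/-- step 4 -/
theorem A_smul_fix {r : F} (hr : S.φ r = r) (w : W) : S.A (r • w) = S.T r • S.A w := by
  by_cases hr0 : r = 0
  · rw [hr0, zero_smul, T_zero, zero_smul, A_zero]
  obtain ⟨k, hk0, hk⟩ := S.exists_Hm_ne w
  have hl := S.hk₀'
  have hl0 := S.hk₀
  obtain ⟨hψ, hH2, hA2, hT2⟩ := S.N_rel hk hk0 hl hl0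
  have hk20 : -(S.k₀ ^ 2 / k) ≠ 0 := neg_ne_zero.2 (div_ne_zero (pow_ne_zero _ hl0) hk0)
  have hl2 : S.φ (-(r * S.k₀)) = -(-(r * S.k₀)) := S.K_neg (S.K_smul hr hl)
  have hl20 : -(r * S.k₀) ≠ 0 := neg_ne_zero.2 (mul_ne_zero hr0 hl0)
  obtain ⟨-, -, hA3, -⟩ := S.N_rel hH2 hk20 hl2 hl20
  rw [hA2, hT2, smul_smul, smul_smul, S.τ_neg (S.K_smul hr hl), S.τ_smul hr hl] at hA3
  have e1 : -(-(r * S.k₀) / -(S.k₀ ^ 2 / k)) * -(S.k₀ / k) = r := by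
    field_simp
  have hτ := S.τk₀
  have e2 : -(-(S.T r * S.τ S.k₀) / -(S.τ S.k₀ ^ 2 / S.T2 w k)) * -(S.τ S.k₀ / S.T2 w k) = S.T r := by
    field_simp
  rw [e1, e2] at hA3
  exact hA3

end PsuAlg

end Cfsg.Agent.Lib.Helper64
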