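import Cfsg.Agent.Lib.Helper64.AutPSUAlg3

set_option autoImplicit false

namespace Cfsg.Agent.Lib.Helper64

namespace PsuAlg

variable {F W : Type*} [Field F] [AddCommGroup W] [Module F W] (S : PsuAlg F W)

theorem A_inj {w : W} (h : S.A w = 0) : w = 0 := by
  obtain ⟨k, hk⟩ := S.exists_Hm w
  have h1 := S.h_mem w k hk
  rw [S.A_eq hk, h, h_zero_left] at h1
  have h2 : S.φ (S.T2 w k) = -S.T2 w k := by linear_combination h1
  obtain ⟨l, hl, hτ⟩ := S.τ_surj h2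
  exact (S.h_inj w k 0 l hk (S.Hm_zero hl) (by rw [S.A_eq hk, h, S.h_X l hl]) hτ.symm).1

theorem ne_zero_of_h {w : W} (hw : S.h w w ≠ 0) : w ≠ 0 := by
  rintro rfl
  exact hw (S.h_zero_left 0)

theorem A_ne {w : W} (hw : S.h w w ≠ 0) : S.A w ≠ 0 := fun h => S.ne_zero_of_h hw (S.A_inj h)

theorem exists_l {w : W} (hw : S.h w w ≠ 0) {y : F} (hy : S.φ y ≠ y) :
    ∃ l, S.φ l = -l ∧ l ≠ 0 ∧ S.Hm w (-(l / y)) := by
  have hy0 : y ≠ 0 := by
    rintro rfl
    exact hy (map_zero _)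
  have hy0' : S.φ y ≠ 0 := by
    intro h
    apply hy0
    have := congrArg S.φ h
    rwa [S.φφ, map_zero] at this
  have hd : S.φ y - y ≠ 0 := sub_ne_zero.2 hy
  refine ⟨S.h w w * (y * S.φ y) / (S.φ y - y), ?_, ?_, ?_⟩
  · rw [map_div₀, map_mul, map_mul, map_sub, S.φφ, h_self]
    have hd' : y - S.φ y ≠ 0 := sub_ne_zero.2 (Ne.symm hy)
    field_simp
    ring
  · exact div_ne_zero (mul_ne_zero hw (mul_ne_zero hy0 hy0')) hd
  · unfold Hm
    rw [map_neg, map_div₀, map_div₀, map_mul, map_mul, map_sub, S.φφ, h_self]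
    have hd' : y - S.φ y ≠ 0 := sub_ne_zero.2 (Ne.symm hy)
    field_simp
    ring

theorem N_y {w : W} (hw : S.h w w ≠ 0) {y : F} (hy : S.φ y ≠ y) :
    ∃ l ψ, S.φ l = -l ∧ l ≠ 0 ∧ ψ ≠ 0 ∧ S.A (y • w) = -(S.τ l / ψ) • S.A w ∧
      S.Hm (y • w) (l * y) ∧ S.T2 (y • w) (l * y) = -((S.τ l) ^ 2 / ψ) := by
  have hy0 : y ≠ 0 := by
    rintro rfl
    exact hy (map_zero _)
  obtain ⟨l, hl, hl0, hH⟩ := S.exists_l hw hy
  have hk0 : -(l / y) ≠ 0 := neg_ne_zero.2 (div_ne_zero hl0 hy0)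
  obtain ⟨h1, h2, h3, h4⟩ := S.N_rel hH hk0 hl hl0
  have e1 : -(l / -(l / y)) = y := by field_simp
  have e2 : -(l ^ 2 / -(l / y)) = l * y := by field_simp
  rw [e1] at h2 h3 h4
  rw [e2] at h2 h4
  exact ⟨l, _, hl, hl0, h1, h3, h2, h4⟩

theorem line_noniso {w : W} (hw : S.h w w ≠ 0) (x : F) : ∃ y : F, S.A (x • w) = y • S.A w := by
  by_cases hx : S.φ x = x
  · exact ⟨_, S.A_smul_fix hx w⟩
  · obtain ⟨l, ψ, -, -, -, h, -⟩ := S.N_y hw hx
    exact ⟨_, h⟩

open Classical in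
/-- the scalar by which `A` acts on the line of `w`. -/
noncomputable def sg (w : W) (x : F) : F :=
  if h : ∃ y : F, S.A (x • w) = y • S.A w then h.choose else 0

theorem sg_spec {w : W} (hw : S.h w w ≠ 0) (x : F) : S.A (x • w) = S.sg w x • S.A w := by
  unfold sg
  rw [dif_pos (S.line_noniso hw x)]
  exact (S.line_noniso hw x).choose_spec

theorem sg_unique {w : W} (hw : S.h w w ≠ 0) {x y : F} (h : S.A (x • w) = y • S.A w) :
    S.sg w x = y := by
  have h1 := S.sg_spec hw x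
  rw [h] at h1
  have h2 : (y - S.sg w x) • S.A w = 0 := by rw [sub_smul, h1, sub_self]
  rcases smul_eq_zero.1 h2 with h3 | h3
  · exact (sub_eq_zero.1 h3).symm
  · exact absurd h3 (S.A_ne hw)

theorem sg_add {w : W} (hw : S.h w w ≠ 0) (x y : F) :
    S.sg w (x + y) = S.sg w x + S.sg w y := by
  apply S.sg_unique hw
  rw [add_smul, A_add, S.sg_spec hw, S.sg_spec hw, add_smul]

theorem sg_fix {w : W} (hw : S.h w w ≠ 0) {r : F} (hr : S.φ r = r) : S.sg w r = S.T r :=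
  S.sg_unique hw (S.A_smul_fix hr w)

theorem sg_fix_mul {w : W} (hw : S.h w w ≠ 0) {r : F} (hr : S.φ r = r) (x : F) :
    S.sg w (r * x) = S.T r * S.sg w x := by
  apply S.sg_unique hw
  rw [mul_smul, S.A_smul_fix hr, S.sg_spec hw, smul_smul]

theorem sg_one {w : W} (hw : S.h w w ≠ 0) : S.sg w 1 = 1 := by
  rw [S.sg_fix hw (map_one _), T_one]

theorem sg_zero {w : W} (hw : S.h w w ≠ 0) : S.sg w 0 = 0 := by
  rw [S.sg_fix hw (map_zero _), T_zero]

theorem sg_neg {w : W} (hw : S.h w w ≠ 0) (x : F) : S.sg w (-x) = -S.sg w x := by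
  have := S.sg_add hw x (-x)
  rw [add_neg_cancel, S.sg_zero hw] at this
  exact (neg_eq_of_add_eq_zero_right this.symm).symm

theorem sg_sub {w : W} (hw : S.h w w ≠ 0) (x y : F) :
    S.sg w (x - y) = S.sg w x - S.sg w y := by
  rw [sub_eq_add_neg, S.sg_add hw, S.sg_neg hw, sub_eq_add_neg]

/-- step 6 -/
theorem sg_inv {w : W} (hw : S.h w w ≠ 0) {z : F} (hz : S.φ z ≠ z) :
    S.sg w z ≠ 0 ∧ S.sg w z⁻¹ = (S.sg w z)⁻¹ := by
  have hz0 : z ≠ 0 := by
    rintro rfl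
    exact hz (map_zero _)
  have hy : S.φ (z - 1) ≠ z - 1 := by
    intro h
    apply hz
    rw [map_sub, map_one] at h
    linear_combination h
  obtain ⟨l, ψ, hl, hl0, hψ, hA, hH, hT⟩ := S.N_y hw hy
  have hτ := S.τ_ne hl hl0
  have hsy : S.sg w (z - 1) = -(S.τ l / ψ) := S.sg_unique hw hA
  have hsz : S.sg w z = S.sg w (z - 1) + 1 := by
    rw [S.sg_sub hw, S.sg_one hw]; ring
  have hH3 := S.Hm_shift hH hl
  have hT3 : S.T2 ((z - 1) • w) (l * (z - 1) + l) = S.τ l * S.sg w z := by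
    rw [S.T2_shift hH hl, hT, hsz, hsy]
    change _ + S.τ l = _
    field_simp
  have e3 : l * (z - 1) + l = l * z := by ring
  rw [e3] at hH3 hT3
  obtain ⟨h1, -, h3, -⟩ := S.N_rel hH3 (mul_ne_zero hl0 hz0) hl hl0
  rw [hT3] at h1 h3
  have hsz0 : S.sg w z ≠ 0 := right_ne_zero_of_mul h1
  refine ⟨hsz0, ?_⟩
  rw [smul_smul, S.sg_spec hw (z - 1), smul_smul] at h3
  have h4 := S.sg_unique hw h3
  have e4 : -(l / (l * z)) * (z - 1) = z⁻¹ - 1 := by field_simp; ring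
  rw [e4, S.sg_sub hw, S.sg_one hw] at h4
  have e5 : S.sg w (z - 1) = S.sg w z - 1 := by rw [hsz]; ring
  rw [e5] at h4
  have : S.sg w z⁻¹ = -(S.τ l / (S.τ l * S.sg w z)) * (S.sg w z - 1) + 1 := by
    linear_combination h4
  rw [this]
  field_simp
  ring

/-- step 7 -/
theorem sg_conj {w : W} (hw : S.h w w ≠ 0) {z : F} (hz : S.φ z ≠ z) :
    S.sg w z * S.sg w (S.φ z) = S.T (z * S.φ z) := by
  have hz0 : z ≠ 0 := by
    rintro rfl
    exact hz (map_zero _)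
  obtain ⟨h0, h1⟩ := S.sg_inv hw hz
  have hN : S.φ (z * S.φ z) = z * S.φ z := by rw [map_mul, S.φφ, mul_comm]
  have e : S.φ z = (z * S.φ z) * z⁻¹ := by field_simp
  conv_lhs => rw [e]
  rw [S.sg_fix_mul hw hN, h1]
  field_simp

theorem sg_sq {w : W} (hw : S.h w w ≠ 0) {z : F} (hz : S.φ z ≠ z) :
    S.sg w (z * z) = S.sg w z * S.sg w z := by
  have hN : S.φ (z * S.φ z) = z * S.φ z := by rw [map_mul, S.φφ, mul_comm]
  have hTr : S.φ (z + S.φ z) = z + S.φ z := by rw [map_add, S.φφ, add_comm]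
  have e : z * z = (z + S.φ z) * z - z * S.φ z := by ring
  rw [e, S.sg_sub hw, S.sg_fix_mul hw hTr, S.sg_fix hw hN, ← S.sg_conj hw hz, ← S.sg_fix hw hTr,
    S.sg_add hw]
  ring

theorem sg_mul {w : W} (hw : S.h w w ≠ 0) (z z' : F) :
    S.sg w (z * z') = S.sg w z * S.sg w z' := by
  by_cases hz : S.φ z = z
  · rw [S.sg_fix_mul hw hz, S.sg_fix hw hz]
  · have hd : z - S.φ z ≠ 0 := sub_ne_zero.2 (Ne.symm hz)
    set t := (z' - S.φ z') / (z - S.φ z) with ht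
    have htf : S.φ t = t := by
      rw [ht]
      apply S.F_div
      · rw [map_sub, S.φφ]; ring
      · rw [map_sub, S.φφ]; ring
    set r := z' - t * z with hr
    have hrf : S.φ r = r := by
      rw [hr, map_sub, map_mul, htf]
      have : t * (z - S.φ z) = z' - S.φ z' := by rw [ht]; field_simp
      linear_combination this
    have e1 : z' = r + t * z := by rw [hr]; ring
    have e2 : z * z' = r * z + t * (z * z) := by rw [e1]; ring
    rw [e2, S.sg_add hw, S.sg_fix_mul hw hrf, S.sg_fix_mul hw htf, S.sg_sq hw hz]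
    conv_rhs => rw [e1, S.sg_add hw, S.sg_fix hw hrf, S.sg_fix_mul hw htf]
    ring

/-- `sg w` as a ring homomorphism. -/
noncomputable def sgHom {w : W} (hw : S.h w w ≠ 0) : F →+* F where
  toFun := S.sg w
  map_one' := S.sg_one hw
  map_mul' := S.sg_mul hw
  map_zero' := S.sg_zero hw
  map_add' := S.sg_add hw

theorem sgHom_apply {w : W} (hw : S.h w w ≠ 0) (x : F) : S.sgHom hw x = S.sg w x := rfl

end PsuAlg

end Cfsg.Agent.Lib.Helper64
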