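import Cfsg.Agent.Lib.Helper64.AutPSUAlg4

set_option autoImplicit false

namespace Cfsg.Agent.Lib.Helper64

namespace PsuAlg

variable {F W : Type*} [Field F] [AddCommGroup W] [Module F W] (S : PsuAlg F W)

theorem sg_inj {w : W} (hw : S.h w w ≠ 0) {x : F} (h : S.sg w x = 0) : x = 0 :=
  (map_eq_zero (S.sgHom hw)).1 h

theorem sg_surj [Finite F] {w : W} (hw : S.h w w ≠ 0) (μ : F) : ∃ x, S.sg w x = μ :=
  (Finite.injective_iff_surjective.1 (S.sgHom hw).injective) μ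

theorem Hm_iso {w : W} (hw : S.h w w = 0) : S.Hm w 0 := by
  unfold Hm
  rw [map_zero, hw]; ring

theorem line_all (w : W) (x : F) : ∃ y : F, S.A (x • w) = y • S.A w := by
  by_cases hw : S.h w w = 0
  · obtain ⟨y, hy⟩ := S.h_iso w hw x
    have h2 : S.Hm (x • w) 0 := S.Hm_iso (by rw [h_smul_smul, hw, mul_zero])
    rw [S.A_eq (S.Hm_iso hw), S.A_eq h2] at hy
    exact ⟨y, hy⟩
  · exact S.line_noniso hw x

theorem sg_eq [Finite F] {w₁ w₂ : W} (hw₁ : S.h w₁ w₁ ≠ 0) (hw₂ : S.h w₂ w₂ ≠ 0) (x : F) :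
    S.sg w₁ x = S.sg w₂ x := by
  by_cases hdep : ∃ μ : F, w₂ = μ • w₁
  · obtain ⟨μ, rfl⟩ := hdep
    symm
    apply S.sg_unique hw₂
    rw [smul_smul, S.sg_spec hw₁, S.sg_mul hw₁, S.sg_spec hw₁ μ, smul_smul]
  · obtain ⟨c, hc⟩ := S.line_all (w₁ + w₂) x
    rw [smul_add, A_add, A_add, S.sg_spec hw₁, S.sg_spec hw₂, smul_add] at hc
    have h1 : (S.sg w₁ x - c) • S.A w₁ + (S.sg w₂ x - c) • S.A w₂ = 0 := by
      rw [sub_smul, sub_smul]
      have : S.sg w₁ x • S.A w₁ - c • S.A w₁ + (S.sg w₂ x • S.A w₂ - c • S.A w₂) =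
          (S.sg w₁ x • S.A w₁ + S.sg w₂ x • S.A w₂) - (c • S.A w₁ + c • S.A w₂) := by abel
      rw [this, hc, sub_self]
    by_cases h2 : S.sg w₂ x - c = 0
    · rw [h2, zero_smul, add_zero] at h1
      rcases smul_eq_zero.1 h1 with h3 | h3
      · rw [sub_eq_zero] at h2 h3
        rw [h2, h3]
      · exact absurd h3 (S.A_ne hw₁)
    · exfalso
      apply hdep
      obtain ⟨μ, hμ⟩ := S.sg_surj hw₁ (-((S.sg w₂ x - c)⁻¹ * (S.sg w₁ x - c)))
      refine ⟨μ, ?_⟩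
      have h3 : (S.sg w₂ x - c) • S.A w₂ = -((S.sg w₁ x - c) • S.A w₁) :=
        eq_neg_of_add_eq_zero_right h1
      have h4 : S.A w₂ = -((S.sg w₂ x - c)⁻¹ * (S.sg w₁ x - c)) • S.A w₁ := by
        calc S.A w₂ = (S.sg w₂ x - c)⁻¹ • ((S.sg w₂ x - c) • S.A w₂) := by
              rw [smul_smul, inv_mul_cancel₀ h2, one_smul]
          _ = _ := by rw [h3, smul_neg, smul_smul, neg_smul]
      have h5 : S.A (w₂ - μ • w₁) = 0 := by
        rw [A_sub, S.sg_spec hw₁, hμ, ← h4, sub_self]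
      exact sub_eq_zero.1 (S.A_inj h5)

/-- the field automorphism (as a function). -/
noncomputable def σ (x : F) : F := S.sg S.w₀ x

theorem A_smul [Finite F] (x : F) (w : W) : S.A (x • w) = S.σ x • S.A w := by
  unfold σ
  by_cases hw : S.h w w = 0
  · by_cases hw0 : w = 0
    · rw [hw0, smul_zero, A_zero, smul_zero]
    · obtain ⟨w₁, h1, h2⟩ := S.h_dec w hw hw0
      have e : w = w₁ + (w - w₁) := by abel
      conv_lhs => rw [e]
      rw [smul_add, A_add, S.sg_spec h1, S.sg_spec h2, S.sg_eq h1 S.hw₀, S.sg_eq h2 S.hw₀,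
        ← smul_add, ← A_add, ← e]
  · rw [S.sg_spec hw, S.sg_eq hw S.hw₀]

theorem σ_mul (x y : F) : S.σ (x * y) = S.σ x * S.σ y := S.sg_mul S.hw₀ x y
theorem σ_add (x y : F) : S.σ (x + y) = S.σ x + S.σ y := S.sg_add S.hw₀ x y
theorem σ_sub (x y : F) : S.σ (x - y) = S.σ x - S.σ y := S.sg_sub S.hw₀ x y
theorem σ_neg (x : F) : S.σ (-x) = -S.σ x := S.sg_neg S.hw₀ x
theorem σ_one : S.σ 1 = 1 := S.sg_one S.hw₀
theorem σ_zero : S.σ 0 = 0 := S.sg_zero S.hw₀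
theorem σ_fix {r : F} (hr : S.φ r = r) : S.σ r = S.T r := S.sg_fix S.hw₀ hr
theorem σ_ne {x : F} (hx : x ≠ 0) : S.σ x ≠ 0 := fun h => hx (S.sg_inj S.hw₀ h)
theorem σ_inv (x : F) : S.σ x⁻¹ = (S.σ x)⁻¹ := map_inv₀ (S.sgHom S.hw₀) x
theorem σ_φ (x : F) : S.σ (S.φ x) = S.φ (S.σ x) := S.φ_comm (S.sgHom S.hw₀) x

/-- the multiplier. -/
noncomputable def c : F := S.τ S.k₀ / S.σ S.k₀

theorem c_ne : S.c ≠ 0 := div_ne_zero S.τk₀ (S.σ_ne S.hk₀)

theorem c_fix : S.φ S.c = S.c := by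
  apply S.F_div (S.τ_mem S.hk₀')
  rw [← σ_φ, S.hk₀', σ_neg]

theorem τ_eq {l : F} (hl : S.φ l = -l) : S.τ l = S.c * S.σ l := by
  have hs : S.φ (l / S.k₀) = l / S.k₀ := S.F_div hl S.hk₀'
  have e1 : l = l / S.k₀ * S.k₀ := (div_mul_cancel₀ _ S.hk₀).symm
  have h1 := S.τ_smul hs S.hk₀'
  rw [← e1, ← S.σ_fix hs] at h1
  have h2 : S.σ l = S.σ (l / S.k₀) * S.σ S.k₀ := by rw [← σ_mul, ← e1]
  rw [h1, h2]
  unfold c
  have := S.σ_ne S.hk₀
  field_simp

theorem tb_eq' {l : F} (hl : S.φ l = -l) : S.tb l = S.c⁻¹ * S.σ l := by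
  by_cases hl0 : l = 0
  · rw [hl0, tb_zero, σ_zero, mul_zero]
  · rw [S.tb_eq hl hl0, S.τ_eq (S.K_inv hl), σ_inv, mul_inv, inv_inv]

/-- step 10 -/
theorem form_eq [Finite F] (w w' : W) : S.h (S.A w) (S.A w') = S.c * S.σ (S.h w w') := by
  have hsym : ∀ u u' : W, S.h (S.A u) (S.A u') - S.c * S.σ (S.h u u') =
      S.h (S.A u') (S.A u) - S.c * S.σ (S.h u' u) := by
    intro u u'
    obtain ⟨k, hk⟩ := S.exists_Hm u
    obtain ⟨k', hk'⟩ := S.exists_Hm u'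
    have h1 := (S.h_mul u k u' k' hk hk').2
    have h2 := (S.h_mul u' k' u k hk' hk).2
    have hδ : S.φ (S.h u u' - S.h u' u) = -(S.h u u' - S.h u' u) := by
      rw [map_sub, S.h_conj, S.h_conj]; ring
    have h3 := S.T2_shift (S.Hm_mul hk' hk) hδ
    have e : k' + k - S.h u u' + (S.h u u' - S.h u' u) = k + k' - S.h u' u := by ring
    rw [e, h2, add_comm u' u, h1, S.A_eq hk, S.A_eq hk'] at h3
    change _ = _ + S.τ _ at h3
    rw [S.τ_eq hδ, σ_sub] at h3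
    linear_combination h3
  have hfix : ∀ u u' : W, S.φ (S.h (S.A u) (S.A u') - S.c * S.σ (S.h u u')) =
      S.h (S.A u) (S.A u') - S.c * S.σ (S.h u u') := by
    intro u u'
    rw [map_sub, map_mul, S.h_conj, c_fix, ← σ_φ, S.h_conj]
    exact (hsym u u').symm
  by_contra hne
  have hne' : S.h (S.A w) (S.A w') - S.c * S.σ (S.h w w') ≠ 0 := sub_ne_zero.2 hne
  obtain ⟨y, hy⟩ := S.sg_surj S.hw₀ S.e₀
  have h1 := hfix (y • w) w'
  have e : S.h (S.A (y • w)) (S.A w') - S.c * S.σ (S.h (y • w) w') =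
      S.e₀ * (S.h (S.A w) (S.A w') - S.c * S.σ (S.h w w')) := by
    rw [S.A_smul, S.h_smul, S.h_smul, σ_mul]
    have : S.σ y = S.e₀ := hy
    rw [this]; ring
  rw [e, map_mul, hfix w w'] at h1
  exact S.he₀ (mul_right_cancel₀ hne' h1)

/-- step 11 -/
theorem T2_eq [Finite F] {w : W} {k : F} (hk : S.Hm w k) : S.T2 w k = S.c * S.σ k := by
  by_cases hw0 : w = 0
  · subst hw0
    exact S.τ_eq (S.Hm_zero_iff.1 hk)
  have hA : S.A w ≠ 0 := fun h => hw0 (S.A_inj h)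
  have hl := S.hk₀'
  have hl0 := S.hk₀
  have hc := S.c_ne
  have hσl := S.σ_ne hl0
  by_cases hd : 1 + S.k₀ * k = 0
  · have hk' : k = -S.k₀⁻¹ := by
      field_simp
      linear_combination hd
    have hkK : S.φ k = -k := by rw [hk']; exact S.K_neg (S.K_inv hl)
    have hw : S.h w w = 0 := by
      unfold Hm at hk
      rw [hkK] at hk
      linear_combination hk
    have hH0 := S.Hm_iso hw
    obtain ⟨h1, -, h3⟩ := S.h_b w 0 S.k₀ hH0 hl (by simp)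
    simp only [mul_zero, add_zero, inv_one, one_smul] at h3
    have htb := S.tb_ne hl hl0
    have h0 : S.T2 w 0 = 0 := by
      by_contra hne
      have h4 : (1 + S.tb S.k₀ * S.T2 w 0) * S.T2 w 0 = S.T2 w 0 := by
        calc (1 + S.tb S.k₀ * S.T2 w 0) * S.T2 w 0
            = (1 + S.tb S.k₀ * S.T2 w 0) * ((1 + S.tb S.k₀ * S.T2 w 0)⁻¹ * S.T2 w 0) := by
              rw [← h3]
          _ = S.T2 w 0 := by rw [← mul_assoc, mul_inv_cancel₀ h1, one_mul]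
      have h5 : S.tb S.k₀ * S.T2 w 0 * S.T2 w 0 = 0 := by linear_combination h4
      exact mul_ne_zero (mul_ne_zero htb hne) hne h5
    have := S.T2_shift hH0 hkK
    rw [zero_add, h0, zero_add] at this
    rw [this]
    exact S.τ_eq hkK
  · obtain ⟨h1, h2, -⟩ := S.h_b w k S.k₀ hk hl hd
    rw [S.A_eq (S.Hm_M hk hl hd), S.A_eq hk, S.A_smul] at h2
    have h3 : (S.σ (1 + S.k₀ * k)⁻¹ - (1 + S.tb S.k₀ * S.T2 w k)⁻¹) • S.A w = 0 := by
      rw [sub_smul, h2, sub_self]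
    rcases smul_eq_zero.1 h3 with h4 | h4
    · rw [sub_eq_zero, σ_inv] at h4
      have h5 := inv_injective h4
      rw [σ_add, σ_one, σ_mul, S.tb_eq' hl] at h5
      have h6 : S.σ S.k₀ * (S.c * S.σ k - S.T2 w k) = 0 := by
        field_simp at h5
        linear_combination h5
      rcases mul_eq_zero.1 h6 with h7 | h7
      · exact absurd h7 hσl
      · exact (sub_eq_zero.1 h7).symm
    · exact absurd h4 hA

theorem main [Finite F] : ∃ (σ : F ≃+* F) (c : F), c ≠ 0 ∧ S.φ c = c ∧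
    (∀ w k, S.Hm w k → S.T2 w k = c * σ k) ∧
    (∀ (x : F) w k k', S.Hm w k → S.Hm (x • w) k' → S.T1 (x • w) k' = σ x • S.T1 w k) ∧
    (∀ w k w' k', S.Hm w k → S.Hm w' k' → S.h (S.T1 w k) (S.T1 w' k') = c * σ (S.h w w')) ∧
    (∀ l : F, S.φ l = -l → S.tb l = c⁻¹ * σ l) := by
  refine ⟨RingEquiv.ofBijective (S.sgHom S.hw₀)
    ⟨(S.sgHom S.hw₀).injective, Finite.injective_iff_surjective.1 (S.sgHom S.hw₀).injective⟩,
    S.c, S.c_ne, S.c_fix, ?_, ?_, ?_, ?_⟩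
  · intro w k hk
    exact S.T2_eq hk
  · intro x w k k' hk hk'
    rw [S.A_eq hk, S.A_eq hk']
    exact S.A_smul x w
  · intro w k w' k' hk hk'
    rw [S.A_eq hk, S.A_eq hk']
    exact S.form_eq w w'
  · intro l hl
    exact S.tb_eq' hl

end PsuAlg

end Cfsg.Agent.Lib.Helper64
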