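import Cfsg.Agent.Lib.Helper64.AutPSUAlg5

set_option autoImplicit false

namespace Cfsg.Agent.Lib.Helper64

open Cfsg.Agent.Lib.Helper17

theorem exists_sqrt_of_two_eq_zero {F : Type*} [Field F] [Fintype F] {q : ℕ}
    (hF : Fintype.card F = q ^ 2) (h2 : (2 : F) = 0) (x : F) (hx : x ^ q = x) :
    ∃ y : F, y ^ q = y ∧ y * y = x := by
  obtain ⟨p, k, hp, hchar, rfl⟩ := exists_char_pow hF
  have hp2 : p = 2 := by
    have h : ((2 : ℕ) : F) = 0 := by exact_mod_cast h2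
    rw [CharP.cast_eq_zero_iff F p 2] at h
    exact (Nat.prime_dvd_prime_iff_eq hp Nat.prime_two).1 h
  subst hp2
  have hk : k ≠ 0 := by
    rintro rfl
    have := two_le_of_card_sq hF
    simp at this
  obtain ⟨m, rfl⟩ : ∃ m, k = m + 1 := ⟨k - 1, by omega⟩
  refine ⟨x ^ (2 ^ m), ?_, ?_⟩
  · rw [← pow_mul, mul_comm, pow_mul, hx]
  · rw [← pow_add, ← two_mul, ← pow_succ']
    exact hx

theorem alg {F : Type*} [Field F] [Fintype F] {q : ℕ} (hF : Fintype.card F = q ^ 2)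
    {W : Type*} [AddCommGroup W] [Module F W] (h : W → W → F)
    (h_add : ∀ u v w, h (u + v) w = h u w + h v w)
    (h_smul : ∀ (c : F) u w, h (c • u) w = c * h u w)
    (h_conj : ∀ u w, (h u w) ^ q = h w u)
    (T1 : W → F → W) (T2 : W → F → F) (tb : F → F)
    (h_mem : ∀ w k, k + k ^ q + h w w = 0 → T2 w k + (T2 w k) ^ q + h (T1 w k) (T1 w k) = 0)
    (h_mul : ∀ w k w' k', k + k ^ q + h w w = 0 → k' + k' ^ q + h w' w' = 0 →
        T1 (w + w') (k + k' - h w' w) = T1 w k + T1 w' k' ∧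
        T2 (w + w') (k + k' - h w' w) = T2 w k + T2 w' k' - h (T1 w' k') (T1 w k))
    (h_inj : ∀ w k w' k', k + k ^ q + h w w = 0 → k' + k' ^ q + h w' w' = 0 →
        T1 w k = T1 w' k' → T2 w k = T2 w' k' → w = w' ∧ k = k')
    (h_X : ∀ l : F, l + l ^ q = 0 → T1 0 l = 0)
    (tb_mem : ∀ l : F, l + l ^ q = 0 → tb l + (tb l) ^ q = 0)
    (tb_add : ∀ l l' : F, l + l ^ q = 0 → l' + l' ^ q = 0 → tb (l + l') = tb l + tb l')
    (tb_surj : ∀ m : F, m + m ^ q = 0 → ∃ l : F, l + l ^ q = 0 ∧ tb l = m)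
    (h_b : ∀ w k l, k + k ^ q + h w w = 0 → l + l ^ q = 0 → 1 + l * k ≠ 0 →
        1 + tb l * T2 w k ≠ 0 ∧
        T1 ((1 + l * k)⁻¹ • w) ((1 + l * k)⁻¹ * k) = (1 + tb l * T2 w k)⁻¹ • T1 w k ∧
        T2 ((1 + l * k)⁻¹ • w) ((1 + l * k)⁻¹ * k) = (1 + tb l * T2 w k)⁻¹ * T2 w k)
    (h_iso : ∀ w, h w w = 0 → ∀ x : F, ∃ y : F, T1 (x • w) 0 = y • T1 w 0)
    (h_dec : ∀ w, h w w = 0 → w ≠ 0 → ∃ w₁, h w₁ w₁ ≠ 0 ∧ h (w - w₁) (w - w₁) ≠ 0)
    (h_ne : ∃ w₀, h w₀ w₀ ≠ 0) :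
    ∃ (σ : F ≃+* F) (c : F), c ≠ 0 ∧ c ^ q = c ∧
      (∀ w k, k + k ^ q + h w w = 0 → T2 w k = c * σ k) ∧
      (∀ (x : F) w k k', k + k ^ q + h w w = 0 → k' + k' ^ q + h (x • w) (x • w) = 0 →
          T1 (x • w) k' = σ x • T1 w k) ∧
      (∀ w k w' k', k + k ^ q + h w w = 0 → k' + k' ^ q + h w' w' = 0 →
          h (T1 w k) (T1 w' k') = c * σ (h w w')) ∧
      (∀ l : F, l + l ^ q = 0 → tb l = c⁻¹ * σ l) := by
  obtain ⟨e₀, he₀⟩ : ∃ e : F, e ^ q ≠ e := by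
    by_contra hcon
    push Not at hcon
    apply frobQ_ne_id hF
    ext a
    exact hcon a
  obtain ⟨k₀, hk₀, hk₀'⟩ := exists_trace_zero hF
  obtain ⟨w₀, hw₀⟩ := h_ne
  have toK : ∀ {l : F}, l ^ q = -l → l + l ^ q = 0 := by
    intro l hl
    rw [hl]; ring
  have ofK : ∀ {l : F}, l + l ^ q = 0 → l ^ q = -l := by
    intro l hl
    linear_combination hl
  let S : PsuAlg F W :=
    { φ := frobQ hF
      φφ := frobQ_frobQ hF
      φ_comm := fun σ x => map_pow σ x q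
      e₀ := e₀
      he₀ := he₀
      tr_surj := fun r hr => exists_trace_eq hF r hr
      k₀ := k₀
      hk₀ := hk₀
      hk₀' := hk₀'
      sq := fun h2 x hx => exists_sqrt_of_two_eq_zero hF h2 x hx
      h := h
      h_add := h_add
      h_smul := h_smul
      h_conj := h_conj
      T1 := T1
      T2 := T2
      tb := tb
      h_mem := h_mem
      h_mul := h_mul
      h_inj := h_inj
      h_X := fun l hl => h_X l (toK hl)
      tb_mem := fun l hl => ofK (tb_mem l (toK hl))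
      tb_add := fun l l' hl hl' => tb_add l l' (toK hl) (toK hl')
      tb_surj := fun m hm => by
        obtain ⟨l, hl, hlm⟩ := tb_surj m (toK hm)
        exact ⟨l, ofK hl, hlm⟩
      h_b := fun w k l hk hl hd => h_b w k l hk (toK hl) hd
      h_iso := h_iso
      h_dec := h_dec
      w₀ := w₀
      hw₀ := hw₀ }
  obtain ⟨σ, c, hc, hcf, h1, h2, h3, h4⟩ := S.main
  exact ⟨σ, c, hc, hcf, h1, h2, h3, fun l hl => h4 l (ofK hl)⟩

end Cfsg.Agent.Lib.Helper64
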