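import Cfsg.Agent.Lib.Helper64.PrimeGraph

set_option autoImplicit false

namespace Cfsg.Agent.Lib.Helper64

theorem not_isPrimePow_mul {p q : ℕ} (hp : p.Prime) (hq : q.Prime) (hpq : p ≠ q) :
    ¬ IsPrimePow (p * q) := by
  intro h
  rw [isPrimePow_nat_iff] at h
  obtain ⟨r, k, hr, _, hk⟩ := h
  have h1 : p ∣ r ^ k := hk ▸ Dvd.intro _ rfl
  have h2 : q ∣ r ^ k := hk ▸ Dvd.intro_left _ rfl
  have e1 := (Nat.prime_dvd_prime_iff_eq hp hr).mp (hp.dvd_of_dvd_pow h1)
  have e2 := (Nat.prime_dvd_prime_iff_eq hq hr).mp (hq.dvd_of_dvd_pow h2)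
  exact hpq (e1.trans e2.symm)

/-- A finite solvable group without elements of order a product of two distinct primes has at most
two prime divisors. -/
theorem card_primeFactors_le_two_of_solvable {G : Type*} [Group G] [Finite G]
    (hG : Group.IsSolvable G)
    (h : ∀ p q : ℕ, p.Prime → q.Prime → p ≠ q → ∀ g : G, orderOf g ≠ p * q) :
    (Nat.card G).primeFactors.card ≤ 2 := by
  by_contra hcon
  push Not at hcon
  obtain ⟨p, hp, q, hq, r, hr, hpq, hpr, hqr⟩ := Finset.two_lt_card.mp hcon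
  have hp' := Nat.mem_primeFactors.mp hp
  have hq' := Nat.mem_primeFactors.mp hq
  have hr' := Nat.mem_primeFactors.mp hr
  have hsol : Group.IsSolvable ↥(⊤ : Subgroup G) :=
    Group.isSolvable_of_isSolvable_injective (Subgroup.subtype_injective ⊤)
  rcases solvable_normal_adj _ (⊤ : Subgroup G) inferInstance hsol rfl p q r
    hp'.1 hq'.1 hr'.1 hpq hpr hqr
    (by rw [Subgroup.card_top]; exact hp'.2.1)
    (by rw [Subgroup.card_top]; exact hq'.2.1) hr'.2.1 with ⟨x, hx⟩ | ⟨x, hx⟩ | ⟨x, hx⟩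
  · exact h p q hp'.1 hq'.1 hpq x hx
  · exact h p r hp'.1 hr'.1 hpr x hx
  · exact h q r hq'.1 hr'.1 hqr x hx

end Cfsg.Agent.Lib.Helper64
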