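import Cfsg.Agent.Lib.Helper64.CPGroup

set_option autoImplicit false

namespace Cfsg.Agent.Lib.Helper64

/-- No element has order a product of two distinct primes. -/
def NoMixed (X : Type*) [Group X] : Prop :=
  ∀ p q : ℕ, p.Prime → q.Prime → p ≠ q → ∀ g : X, orderOf g ≠ p * q

theorem NoMixed.subgroup {X : Type*} [Group X] (h : NoMixed X) (M : Subgroup X) : NoMixed M := by
  intro p q hp hq hpq g hg
  exact h p q hp hq hpq (g : X) (by rw [Subgroup.orderOf_coe, hg])

theorem comm_primes {X : Type*} [Group X] [Finite X] (hX : NoMixed X) (A B : Subgroup X)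
    (hc : ∀ a ∈ A, ∀ b ∈ B, Commute a b) {p q : ℕ} (hp : p.Prime) (hq : q.Prime)
    (hpA : p ∣ Nat.card A) (hqB : q ∣ Nat.card B) : p = q := by
  by_contra hpq
  have : Fact p.Prime := ⟨hp⟩
  have : Fact q.Prime := ⟨hq⟩
  obtain ⟨a, ha⟩ := exists_prime_orderOf_dvd_card' p hpA
  obtain ⟨b, hb⟩ := exists_prime_orderOf_dvd_card' q hqB
  obtain ⟨y, hy⟩ := exists_orderOf_mul (hc a a.2 b b.2) (p := p) (l := q)
    (by rw [Subgroup.orderOf_coe, ha]) (by rw [Subgroup.orderOf_coe, hb])
    ((Nat.coprime_primes hp hq).mpr hpq)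
  exact hX p q hp hq hpq y hy

theorem solvable_of_unique_prime {X : Type*} [Group X] [Finite X] {q : ℕ} (hq : q.Prime)
    (h : ∀ p : ℕ, p.Prime → p ∣ Nat.card X → p = q) : IsPGroup q X ∧ Group.IsSolvable X := by
  have : Fact q.Prime := ⟨hq⟩
  have hc := Nat.eq_prime_pow_of_unique_prime_dvd (n := Nat.card X) (p := q) Nat.card_pos.ne'
    (fun {d} hd hdvd => h d hd hdvd)
  have hp : IsPGroup q X := IsPGroup.of_card hc
  have := hp.isNilpotent
  exact ⟨hp, inferInstance⟩

theorem exists_prime_dvd_card_of_ne_bot {X : Type*} [Group X] [Finite X] {N : Subgroup X}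
    (hN : N ≠ ⊥) : ∃ q : ℕ, q.Prime ∧ q ∣ Nat.card N := by
  apply Nat.exists_prime_and_dvd
  intro h
  exact hN (Subgroup.card_eq_one.mp h)

theorem exists_min_normal {X : Type*} [Group X] [Finite X] [Nontrivial X] :
    ∃ M : Subgroup X, M.Normal ∧ M ≠ ⊥ ∧
      ∀ N : Subgroup X, N.Normal → N ≠ ⊥ → Nat.card M ≤ Nat.card N := by
  have hne : ({N : Subgroup X | N.Normal ∧ N ≠ ⊥}).Nonempty :=
    ⟨⊤, inferInstance, top_ne_bot⟩
  obtain ⟨M, hM, hmin⟩ := WellFounded.has_min
    (measure (fun N : Subgroup X => Nat.card N)).wf _ hne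
  refine ⟨M, hM.1, hM.2, fun N hN1 hN2 => ?_⟩
  have := hmin N ⟨hN1, hN2⟩
  exact not_lt.mp this

/-- A finite nontrivial group without elements of mixed order `pq` and with trivial solvable
radical has a unique minimal normal subgroup, which is nonabelian simple. -/
theorem exists_simple_socle {X : Type*} [Group X] [Finite X] [Nontrivial X] (hX : NoMixed X)
    (hrad : ∀ N : Subgroup X, N.Normal → Group.IsSolvable N → N = ⊥) :
    ∃ M : Subgroup X, M.Normal ∧ IsSimpleGroup M ∧ ¬ IsMulCommutative M ∧
      ∀ N : Subgroup X, N.Normal → N ≠ ⊥ → M ≤ N := by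
  obtain ⟨M, hMn, hM1, hMmin⟩ := exists_min_normal (X := X)
  have hMnt : Nontrivial M := (Subgroup.nontrivial_iff_ne_bot M).mpr hM1
  refine ⟨M, hMn, ?_, ?_, ?_⟩
  · -- simple
    refine { exists_pair_ne := hMnt.exists_pair_ne, eq_bot_or_eq_top_of_normal := ?_ }
    intro N0 hN0
    by_contra hcon
    push Not at hcon
    obtain ⟨hN0b, hN0t⟩ := hcon
    obtain ⟨N1, hN1n, hN11, hN1min⟩ := exists_min_normal (X := M)
    have hlt : Nat.card N1 < Nat.card M := by
      refine lt_of_le_of_lt (hN1min N0 hN0 hN0b) ?_
      have := card_lt_of_lt' (lt_top_iff_ne_top.mpr hN0t)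
      rwa [Subgroup.card_top] at this
    -- conjugates
    have hcn : ∀ g : X, (N1.map (MulAut.conjNormal g : MulAut M).toMonoidHom).Normal := fun g =>
      hN1n.map _ (MulAut.conjNormal g : MulAut M).surjective
    have hcc : ∀ g : X, Nat.card (N1.map (MulAut.conjNormal g : MulAut M).toMonoidHom) =
        Nat.card N1 := fun g =>
      Subgroup.card_map_of_injective (MulAut.conjNormal g : MulAut M).injective
    by_cases hall : ∀ g : X, N1.map (MulAut.conjNormal g : MulAut M).toMonoidHom = N1
    · -- N1 normal in X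
      have hn : (N1.map M.subtype).Normal := by
        constructor
        rintro _ ⟨n, hn, rfl⟩ g
        have h1 : (MulAut.conjNormal g : MulAut M) n ∈ N1 := by
          have : (MulAut.conjNormal g : MulAut M) n ∈
              N1.map (MulAut.conjNormal g : MulAut M).toMonoidHom := ⟨n, hn, rfl⟩
          rwa [hall g] at this
        refine ⟨_, h1, ?_⟩
        simp [MulAut.conjNormal_apply]
      have hne : N1.map M.subtype ≠ ⊥ := by
        intro h
        apply hN11
        rwa [Subgroup.map_eq_bot_iff_of_injective _ (Subgroup.subtype_injective _)] at h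
      have := hMmin _ hn hne
      rw [Subgroup.card_map_of_injective (Subgroup.subtype_injective _)] at this
      omega
    · push Not at hall
      obtain ⟨g, hg⟩ := hall
      set N2 := N1.map (MulAut.conjNormal g : MulAut M).toMonoidHom with hN2
      have hN2n : N2.Normal := hcn g
      have hdis : Disjoint N1 N2 := by
        rw [disjoint_iff]
        by_contra hne
        have hle := hN1min (N1 ⊓ N2) inferInstance hne
        have h1 : N1 ⊓ N2 = N1 := Subgroup.eq_of_le_of_card_ge inf_le_left hle
        have h2 : N1 ≤ N2 := by rw [← h1]; exact inf_le_right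
        exact hg (Subgroup.eq_of_le_of_card_ge h2 (by rw [hcc g])).symm
      obtain ⟨q, hq, hqN⟩ := exists_prime_dvd_card_of_ne_bot hN11
      have hpg : IsPGroup q N1 := (solvable_of_unique_prime hq (fun p hp hpN =>
        comm_primes (hX.subgroup M) N1 N2
          (fun a ha b hb => Subgroup.commute_of_normal_of_disjoint N1 N2 hN1n hN2n hdis a b ha hb)
          hp hq hpN (by rw [hcc g]; exact hqN))).1
      have : Fact q.Prime := ⟨hq⟩
      obtain ⟨P⟩ : Nonempty (Sylow q M) := inferInstance
      have hle : ∀ g : X, N1.map (MulAut.conjNormal g : MulAut M).toMonoidHom ≤ P := by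
        intro g
        have := hcn g
        exact IsPGroup.le_sylow_of_normal (hpg.map _) P
      have hW : Subgroup.normalClosure ((N1.map M.subtype : Subgroup X) : Set X) ≤
          (P : Subgroup M).map M.subtype := by
        unfold Subgroup.normalClosure
        rw [Subgroup.closure_le]
        intro a ha
        rw [Group.mem_conjugatesOfSet_iff] at ha
        obtain ⟨x, ⟨n, hn, rfl⟩, hxa⟩ := ha
        rw [isConj_iff] at hxa
        obtain ⟨c, rfl⟩ := hxa
        refine ⟨(MulAut.conjNormal c : MulAut M) n, hle c ⟨n, hn, rfl⟩, ?_⟩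
        simp [MulAut.conjNormal_apply]
      have hWp : IsPGroup q (Subgroup.normalClosure ((N1.map M.subtype : Subgroup X) : Set X)) :=
        (P.isPGroup'.map M.subtype).to_le hW
      have hWs : Group.IsSolvable
          (Subgroup.normalClosure ((N1.map M.subtype : Subgroup X) : Set X)) := by
        have := hWp.isNilpotent
        infer_instance
      have hWb := hrad _ Subgroup.normalClosure_normal hWs
      apply hN11
      have h3 : N1.map M.subtype ≤ ⊥ := by
        rw [← hWb]; exact Subgroup.le_normalClosure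
      rw [le_bot_iff, Subgroup.map_eq_bot_iff_of_injective _ (Subgroup.subtype_injective _)] at h3
      exact h3
  · -- nonabelian
    intro hc
    apply hM1
    apply hrad M hMn
    have : CommGroup M := { (inferInstance : Group M) with mul_comm := hc.is_comm.comm }
    exact Group.isSolvable_of_comm (fun a b => hc.is_comm.comm a b)
  · intro N hNn hN1
    by_contra hle
    have hdis : Disjoint M N := by
      rw [disjoint_iff]
      by_contra hne
      have h0 := hMmin (M ⊓ N) inferInstance hne
      have h1 : M ⊓ N = M := Subgroup.eq_of_le_of_card_ge inf_le_left h0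
      exact hle (by rw [← h1]; exact inf_le_right)
    obtain ⟨q, hq, hqN⟩ := exists_prime_dvd_card_of_ne_bot hN1
    apply hM1
    apply hrad M hMn
    exact (solvable_of_unique_prime hq (fun p hp hpM =>
      comm_primes hX M N
        (fun a ha b hb => Subgroup.commute_of_normal_of_disjoint M N hMn hNn hdis a b ha hb)
        hp hq hpM hqN)).2

end Cfsg.Agent.Lib.Helper64
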