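import Cfsg.Agent.Lib.Helper86.Rank2Defs
import Cfsg.Agent.Lib.Helper26.Rank2G2
import Cfsg.Agent.Lib.Helper89.OddStab
import Cfsg.Prelude.Def_CaseTheorems

set_option autoImplicit false

/-! Rung G9 of the rank two ladder: weights of an automorphism on a pearl. -/

namespace Cfsg.Agent.Lib.Helper64.Rank2G9

open Cfsg Cfsg.Agent.Lib Cfsg.Agent.Lib.Helper86.Rank2

/-- If `A ≤ B` has index `p`, a subgroup containing `A` and an element of `B` outside `A`
contains `B`. -/
theorem le_of_card_mul {G : Type*} [Group G] [Finite G] {p : ℕ} (hp : p.Prime)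
    (A B X : Subgroup G) (hAB : A ≤ B) (hcard : Nat.card B = p * Nat.card A) (hAX : A ≤ X)
    {z : G} (hzX : z ∈ X) (hzB : z ∈ B) (hzA : z ∉ A) : B ≤ X := by
  have hAY : A ≤ X ⊓ B := le_inf hAX hAB
  have hYB : X ⊓ B ≤ B := inf_le_right
  obtain ⟨k, hk⟩ := Subgroup.card_dvd_of_le hAY
  have hd := Subgroup.card_dvd_of_le hYB
  have hA0 : 0 < Nat.card A := Nat.card_pos
  rw [hk, hcard, mul_comm p] at hd
  have hkp : k ∣ p := Nat.dvd_of_mul_dvd_mul_left hA0 hd
  rcases (Nat.dvd_prime hp).1 hkp with rfl | rfl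
  · exfalso
    have : A = X ⊓ B := Subgroup.eq_of_le_of_card_ge hAY (by rw [hk, mul_one])
    apply hzA
    rw [this]
    exact ⟨hzX, hzB⟩
  · have : X ⊓ B = B := Subgroup.eq_of_le_of_card_ge hYB (by rw [hk, hcard, mul_comm])
    rw [← this]
    exact inf_le_left

theorem pearl_weights {P : Type*} [Group P] [Finite P] {p : ℕ} [Fact p.Prime] (hp : p ≠ 2)
    (hP : IsPGroup p P) (hrk : Cfsg.PRankLE p 2 P)
    (E T : Subgroup P) (hEc : Nat.card E = p ^ 2) (hTc : Nat.card T = p ^ 3)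
    (hTe : ∀ x ∈ T, x ^ p = 1) (hET : E ≤ T)
    (hN : ∀ g : P, (∀ x ∈ E, g * x * g⁻¹ ∈ E) → g ∈ T) (hTtop : T ≠ ⊤)
    (e₁ e₂ c : P) (he₁ : e₁ ∈ E) (he₂ : e₂ ∈ E) (he₁1 : e₁ ≠ 1) (hc : c ∈ T)
    (hc1 : c * e₁ * c⁻¹ = e₁) (hc2 : c * e₂ * c⁻¹ ≠ e₂)
    (β : MulAut P) (hβT : ∀ x ∈ T, β x ∈ T) (m n : ℕ) (h1 : β e₁ = e₁ ^ m) (h2 : β e₂ = e₂ ^ n) :
    n ^ 2 ≡ 1 [MOD p] ∨ m ≡ n ^ 2 [MOD p] := by
  have hpp : p.Prime := Fact.out
  -- `E` is commutative
  have hEcomm : ∀ x ∈ E, ∀ y ∈ E, x * y = y * x := by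
    intro x hx y hy
    have hi := IsPGroup.isMulCommutative_of_card_eq_prime_sq hEc
    exact congrArg Subtype.val (hi.is_comm.comm ⟨x, hx⟩ ⟨y, hy⟩)
  have hcE : c ∉ E := by
    intro h
    apply hc2
    rw [hEcomm c h e₂ he₂, mul_inv_cancel_right]
  have hLc : Nat.card (Subgroup.zpowers e₁) = p := by
    rw [Nat.card_zpowers]
    exact orderOf_eq_prime (hTe e₁ (hET he₁)) he₁1
  have hLE : Subgroup.zpowers e₁ ≤ E := Subgroup.zpowers_le.2 he₁
  -- generation statements
  have genE : ∀ X : Subgroup P, e₁ ∈ X → ∀ z ∈ X, z ∈ E → z ∉ Subgroup.zpowers e₁ → E ≤ X := by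
    intro X h1 z hzX hzE hz
    exact le_of_card_mul hpp _ E X hLE (by rw [hEc, hLc, pow_two]) (Subgroup.zpowers_le.2 h1)
      hzX hzE hz
  have genT : ∀ X : Subgroup P, E ≤ X → ∀ z ∈ X, z ∈ T → z ∉ E → T ≤ X := by
    intro X h1 z hzX hzT hz
    exact le_of_card_mul hpp E T X hET (by rw [hEc, hTc]; ring) h1 hzX hzT hz
  have he₂L : e₂ ∉ Subgroup.zpowers e₁ := by
    intro h
    obtain ⟨k, rfl⟩ := Subgroup.mem_zpowers_iff.1 h
    apply hc2
    have : c * e₁ ^ k * c⁻¹ = (c * e₁ * c⁻¹) ^ k := (conj_zpow).symm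
    rw [this, hc1]
  have hce₁ : c * e₁ = e₁ * c := mul_inv_eq_iff_eq_mul.1 hc1
  -- `e₁` is central in `T`
  have hcen1 : ∀ x ∈ T, e₁ * x = x * e₁ := by
    have h3 : T ≤ Subgroup.centralizer {e₁} := by
      refine genT _ ?_ c ?_ hc hcE
      · intro x hx
        rw [Subgroup.mem_centralizer_singleton_iff]
        exact hEcomm _ hx _ he₁
      · rw [Subgroup.mem_centralizer_singleton_iff]
        exact hce₁
    intro x hx
    exact (Subgroup.mem_centralizer_singleton_iff.1 (h3 hx)).symm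
  have hZ : ∀ z, CenD T z → z ∈ Subgroup.zpowers e₁ := by
    rintro z ⟨hzT, hzc⟩
    by_contra hzL
    apply hc2
    rw [mul_inv_eq_iff_eq_mul]
    by_cases hzE : z ∈ E
    · have h3 : E ≤ Subgroup.centralizer {c} := by
        refine genE _ ?_ z ?_ hzE hzL
        · rw [Subgroup.mem_centralizer_singleton_iff]
          exact hce₁.symm
        · rw [Subgroup.mem_centralizer_singleton_iff]
          exact hzc c hc
      exact (Subgroup.mem_centralizer_singleton_iff.1 (h3 he₂)).symm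
    · have h3 : T ≤ Subgroup.centralizer {e₂} := by
        refine genT _ ?_ z ?_ hzT hzE
        · intro x hx
          rw [Subgroup.mem_centralizer_singleton_iff]
          exact hEcomm _ hx _ he₂
        · rw [Subgroup.mem_centralizer_singleton_iff]
          exact hzc e₂ (hET he₂)
      exact Subgroup.mem_centralizer_singleton_iff.1 (h3 hc)
  have hβZ : ∀ z, CenD T z → β z = z ^ m := by
    intro z hz
    obtain ⟨k, rfl⟩ := Subgroup.mem_zpowers_iff.1 (hZ z hz)
    rw [map_zpow, h1, ← zpow_natCast, ← zpow_natCast, ← zpow_mul, ← zpow_mul, mul_comm]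
  -- `β T = T`
  have hβT' : ∀ x, β x ∈ T ↔ x ∈ T := by
    have hmap : T.map β.toMonoidHom = T := by
      apply Subgroup.eq_of_le_of_card_ge
      · rintro _ ⟨x, hx, rfl⟩
        exact hβT x hx
      · exact (Subgroup.card_map_of_injective (K := T) (f := β.toMonoidHom) β.injective).ge
    intro x
    refine ⟨fun h => ?_, hβT x⟩
    rw [← hmap] at h
    obtain ⟨y, hy, hyx⟩ := h
    have : y = x := β.injective hyx
    exact this ▸ hy
  have hβU : ∀ g ∈ Subgroup.normalizer (T : Set P), β g ∈ Subgroup.normalizer (T : Set P) := by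
    intro g hg
    rw [Subgroup.mem_normalizer_iff] at hg ⊢
    intro h
    obtain ⟨h', rfl⟩ := β.surjective h
    rw [← map_inv, ← map_mul, ← map_mul, hβT', hβT']
    exact hg h'
  have hTU : T ≤ Subgroup.normalizer (T : Set P) := Subgroup.le_normalizer
  have hlt : T < Subgroup.normalizer (T : Set P) := by
    have := hP.isNilpotent
    exact Group.normalizerCondition_of_isNilpotent T (lt_top_iff_ne_top.2 hTtop)
  obtain ⟨g₁, hg₁U, hg₁T⟩ := SetLike.exists_of_lt hlt
  have hex : ∃ g₀ ∈ Subgroup.normalizer (T : Set P), ¬ CenD T (g₀ * e₂ * g₀⁻¹ * e₂⁻¹) := by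
    by_contra hcon
    push Not at hcon
    apply hg₁T
    apply hN
    have hn := Subgroup.mem_normalizer_iff.1 hg₁U
    have hX : E ≤ E.comap (MulAut.conj g₁).toMonoidHom := by
      refine genE _ ?_ e₂ ?_ he₂ he₂L
      · show g₁ * e₁ * g₁⁻¹ ∈ E
        apply hLE
        apply hZ
        refine ⟨(hn e₁).1 (hET he₁), fun x hx => ?_⟩
        have hy : g₁⁻¹ * x * g₁ ∈ T := by
          rw [hn]
          have : g₁ * (g₁⁻¹ * x * g₁) * g₁⁻¹ = x := by group
          rw [this]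
          exact hx
        have h5 := hcen1 _ hy
        calc g₁ * e₁ * g₁⁻¹ * x = g₁ * (e₁ * (g₁⁻¹ * x * g₁)) * g₁⁻¹ := by group
          _ = g₁ * ((g₁⁻¹ * x * g₁) * e₁) * g₁⁻¹ := by rw [h5]
          _ = x * (g₁ * e₁ * g₁⁻¹) := by group
      · show g₁ * e₂ * g₁⁻¹ ∈ E
        have h5 := hLE (hZ _ (hcon g₁ hg₁U))
        have h6 := E.mul_mem h5 he₂
        rwa [inv_mul_cancel_right] at h6
    intro x hx
    exact hX hx
  obtain ⟨g₀, hg₀U, hg₀⟩ := hex
  -- pass to the normalizer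
  have hcenD : ∀ z : Subgroup.normalizer (T : Set P),
      CenD (T.subgroupOf (Subgroup.normalizer (T : Set P))) z ↔ CenD T (z : P) := by
    intro z
    constructor
    · rintro ⟨hz, hzc⟩
      refine ⟨hz, fun x hx => ?_⟩
      exact congrArg Subtype.val (hzc ⟨x, hTU hx⟩ hx)
    · rintro ⟨hz, hzc⟩
      refine ⟨hz, fun x hx => ?_⟩
      exact Subtype.ext (hzc x hx)
  refine Helper26.Rank2G2.weight_lemma (T := Subgroup.normalizer (T : Set P)) hp
    (hP.to_subgroup _) ?_ (T.subgroupOf (Subgroup.normalizer (T : Set P)))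
    Subgroup.normal_in_normalizer ?_ ?_
    (Helper89.restrictAut β (Subgroup.normalizer (T : Set P)) hβU) ?_ m n ?_
    ⟨e₂, hTU (hET he₂)⟩ 1 ⟨g₀, hg₀U⟩ (hET he₂) ?_ (Subgroup.one_mem _) ?_ ?_
  · intro A hA hAe
    have h5 := hrk (A.map (Subgroup.subtype _)) inferInstance (by
      rintro _ ⟨a, ha, rfl⟩
      have := hAe a ha
      simpa using congrArg Subtype.val this)
    rwa [Subgroup.card_map_of_injective (Subgroup.subtype_injective _)] at h5
  · rw [← hTc]
    exact Nat.card_congr (Subgroup.subgroupOfEquivOfLe hTU).toEquiv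
  · intro x hx
    exact Subtype.ext (by simpa using hTe x hx)
  · intro x hx
    exact hβT x hx
  · intro z hz
    apply Subtype.ext
    rw [Helper89.restrictAut_apply, hβZ _ ((hcenD z).1 hz)]
    rfl
  · rw [hcenD]
    exact hg₀
  · intro g
    rw [hcenD]
    simp only [mul_one, mul_inv_cancel, inv_one, Subgroup.coe_one]
    exact ⟨T.one_mem, fun x _ => by rw [one_mul, mul_one]⟩
  · apply Subtype.ext
    rw [Helper89.restrictAut_apply, mul_one]
    exact h2

end Cfsg.Agent.Lib.Helper64.Rank2G9
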